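import Cfsg.Agent.H3.Df
import Cfsg.Agent.H4.Prin

/-!
# Blocks of defect one: structure `Df`
`Df.D` generalized decomposition numbers, `Df.dade`, `Df.apply`.
-/

set_option autoImplicit false
set_option linter.unusedSectionVars false

namespace H3
open MonoidAlgebra Cfsg H1 H4
open scoped Pointwise ComplexConjugate

variable {G : Type*} [Group G] [Finite G] {p : ℕ} [hp : Fact p.Prime] {M : Ideal AlgInt} {B : Set (IrrCharacter G)}
  {P : Sylow p G} {c : Set (IrrCharacter (CS (P : Subgroup G)))} {θ : IrrCharacter (CS (P : Subgroup G))}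
  {χ : G → ℂ}

variable (M P B c θ) in
/-- a block of defect one with a root and its canonical character -/
structure Df : Prop where
  hM : IsPModular p M
  hP : Nat.card P = p
  ind : IsInducedBlock M (CS (P : Subgroup G)) c B
  mem : θ ∈ c
  ker : ∀ x : CS (P : Subgroup G), (x : G) ∈ (P : Subgroup G) → θ.1 x = θ.1 1

variable (M P c) in
/-- the inertia group -/
noncomputable abbrev dT : Subgroup G := Stab (NS (P : Subgroup G)) (aE M (CS (P : Subgroup G)) c)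

variable (c θ) in
/-- generalized decomposition numbers -/
noncomputable def dD (χ : G → ℂ) (t : G) : ℂ := ev χ (aF (CS (P : Subgroup G)) c * single t 1) / θ.1 1

theorem fact_one (hP : Nat.card P = p) : (Nat.card G).factorization p = 1 :=
  Nat.pow_right_injective hp.out.two_le ((P.card_eq_multiplicity.symm.trans hP).trans (pow_one p).symm)

theorem dg_of_Br (hM : IsPModular p M) (hB : IsPBlock M B) (h : Br (P : Subgroup G) (eB M B) ≠ 0) :
    IsDefectGroup p M B P := dg_of_card hM hB P.isPGroup' h (by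
  rw [P.card_eq_multiplicity, blockDefect_eq]; exact Nat.pow_le_pow_right hp.out.pos (Nat.sub_le _ _))

theorem dg_of_pos (hM : IsPModular p M) (hB : IsPBlock M B) (hP : Nat.card P = p) (h : 0 < blockDefect p B) :
    IsDefectGroup p M B P := by
  obtain ⟨D, hD⟩ := exists_dg hM hB
  obtain ⟨Q, hQ⟩ := (dg_isPGroup hD).exists_le_sylow
  obtain ⟨g, rfl⟩ := MulAction.exists_smul_eq G Q P
  rw [Sylow.coe_subgroup_smul, ← Subgroup.eq_of_le_of_card_ge hQ (by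
    rw [dg_card hM hB hD, Q.card_eq_multiplicity, fact_one hP]; exact Nat.pow_le_pow_right hp.out.pos h)]
  exact dg_conj hM hB hD g

theorem sup_CS_top {P : Subgroup G} : P.subgroupOf (CS P) ⊔ CS (P.subgroupOf (CS P)) = ⊤ :=
  eq_top_iff.2 (le_sup_of_le_right fun a _ b hb => Subtype.ext (a.2 b hb))

theorem exists_df (hM : IsPModular p M) (hP : Nat.card P = p) (h : IsInducedBlock M (CS (P : Subgroup G)) c B) :
    ∃ θ, Df M B P c θ :=
  let ⟨θ, ⟨h1, h2⟩, _⟩ := exists_canon hM h.1 (dg_of_ind hM (le_CS_prime hP) (CS_le_NS _) h (dg_of_Br hM h.2.1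
    (ind_Br_ne_zero_of_normal hM P.isPGroup' (le_CS_prime hP) (CS_le_NS _) h))) sup_CS_top
  ⟨θ, hM, hP, h, h1, h2⟩

theorem exists_df' (hM : IsPModular p M) (hB : IsPBlock M B) (hP : Nat.card P = p) (h : IsDefectGroup p M B P) :
    ∃ c θ, Df M B P c θ :=
  let ⟨c, hc⟩ := exists_ind_of_Br hM P.isPGroup' (le_CS_prime hP) le_rfl (CS_le_NS _) hB (dg_Br_ne_zero hM h)
  ⟨c, exists_df hM hP hc⟩

theorem exists_lin {P : Subgroup G} (h : P ≤ CS P) (ψ : IrrCharacter (CS P)) :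
    ∃ l : P →* ℂˣ, ∀ (t : P) (y : CS P), ψ.1 (⟨t, h t.2⟩ * y) = l t * ψ.1 y := by
  obtain ⟨f, hf⟩ := exists_hom_charCenter (irr_one_ne_zero ψ.2)
  refine ⟨f.comp ((Subgroup.inclusion h).codRestrict _ fun t => center_le_charCenter ψ.2
    (Subgroup.mem_center_iff.2 fun y => Subtype.ext (y.2 t t.2).symm)), fun t y => ?_⟩
  rw [class_mul_comm (irr_class ψ.2)]; exact hf ⟨_, _⟩ y

theorem sum_idem {H : Subgroup G} {ι : Type*} (s : Finset ι) (a : ι → ℂ[G]) (h1 : ∀ i ∈ s, a i ∈ ZA ℂ H)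
    (h2 : ∀ i ∈ s, a i ∈ IntA G M) (h3 : ∀ i ∈ s, a i * a i = a i)
    (h4 : ∀ i ∈ s, ∀ j ∈ s, i ≠ j → redA M (a i) * redA M (a j) = 0) : (∑ i ∈ s, a i) * ∑ i ∈ s, a i = ∑ i ∈ s, a i := by
  rw [Finset.sum_mul_sum]
  refine Finset.sum_congr rfl fun i hi => ?_
  rw [Finset.sum_eq_single_of_mem i hi fun j hj hij => by_contra fun h => (mul_ne_zero_iff_redA (h2 i hi) (h2 j hj)
    (ZA_comm_Fix (h1 i hi) (mem_ZA.1 (h1 j hj)).1) (h3 i hi) (h3 j hj)).2 h (h4 i hi j hj hij.symm), h3 i hi]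

namespace Df

theorem hB (h : Df M B P c θ) : IsPBlock M B := h.ind.2.1

theorem ab (h : Df M B P c θ) : (P : Subgroup G) ≤ CS P := le_CS_prime h.hP

theorem dg (h : Df M B P c θ) : IsDefectGroup p M B P :=
  dg_of_Br h.hM h.hB (ind_Br_ne_zero_of_normal h.hM P.isPGroup' h.ab (CS_le_NS _) h.ind)

theorem hm (h : Df M B P c θ) : MaxP p (eB M B) P (aE M _ c) := maxP_of_ind h.hM h.dg h.ind

theorem fb (h : Df M B P c θ) : FB p (P : Subgroup G) (aE M _ c) B := fb_prime h.hM h.hB h.hP h.hm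

theorem defect (h : Df M B P c θ) : blockDefect p B = 1 :=
  Nat.pow_right_injective hp.out.two_le ((h.fb.card.symm.trans h.hP).trans (pow_one p).symm)

theorem not_dvd (h : Df M B P c θ) {χ : IrrCharacter G} (hχ : χ ∈ B) : ¬ p ∣ charDegree χ.1 := fun h1 => by
  have h2 : nu p χ.1 = (Nat.card G).factorization p := le_antisymm (nu_le χ.2)
    (fact_one h.hP ▸ hp.out.factorization_pos_of_dvd (charDegree_ne_zero χ.2) h1)
  have := (blockDefect_blockOf_eq_zero_iff h.hM).2 h2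
  rw [← eq_blockOf h.hM h.hB hχ, h.defect] at this
  exact one_ne_zero this

theorem loc (h : Df M B P c θ) [Fintype (CS (P : Subgroup G))] : Nat.card c = p ∧ (∀ ψ ∈ c, reg p ψ.1 = reg p θ.1) ∧
    p * classInner (reg p θ.1) (reg p θ.1) = 1 := by
  have h1 := dg_of_ind h.hM h.ab (CS_le_NS _) h.ind h.dg
  have h2 := (aNil_of_sup h.hM h.ind.1 h1 sup_CS_top).ab h.hM h.ind.1 h1
    (fun a _ b hb => Subtype.ext (a.2 b hb)) h.mem
  rw [card_subgroupOf h.ab, show Nat.card (P : Subgroup G) = p from h.hP] at h2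
  exact ⟨h2.1, h2.2.2⟩

theorem eq_reg (h : Df M B P c θ) {ψ : IrrCharacter (CS (P : Subgroup G))} (hψ : ψ ∈ c) {y : CS (P : Subgroup G)}
    (hy : ¬ p ∣ orderOf y) : ψ.1 y = θ.1 y := by
  haveI := Fintype.ofFinite (CS (P : Subgroup G))
  rw [← reg_of_not_dvd ψ.1 hy, h.loc.2.1 ψ hψ, reg_of_not_dvd _ hy]

theorem exists_sum (h : Df M B P c θ) [Fintype (CS (P : Subgroup G))] : ∃ l : IrrCharacter (CS (P : Subgroup G)) → P →* ℂˣ,
    (∀ ψ (t : P) y, ψ.1 (⟨t, h.ab t.2⟩ * y) = l ψ t * ψ.1 y) ∧ ∀ χ, IsClassFunction G χ →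
      ∀ (t : P) (y : CS (P : Subgroup G)), ¬ p ∣ orderOf y → ev χ (aF _ c * single ((t : G) * y) 1) =
      (∑ ψ ∈ H4.fs c, classInner (fun x : CS (P : Subgroup G) => χ x) ψ.1 * l ψ t) * θ.1 y := by
  choose l hl using exists_lin h.ab
  refine ⟨l, hl, fun χ hχ t y hy => ?_⟩
  rw [show (t : G) * y = ((⟨t, h.ab t.2⟩ * y : CS (P : Subgroup G)) : G) from rfl, ← blockPart_res_eq_ev hχ c,
    blockPart_apply, Finset.sum_mul]
  exact Finset.sum_congr rfl fun ψ hψ => by rw [hl, h.eq_reg (mem_fs.1 hψ) hy, mul_assoc]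

theorem ev_eq (h : Df M B P c θ) (hχ : IsClassFunction G χ) {t : G} (ht : t ∈ (P : Subgroup G))
    {y : CS (P : Subgroup G)} (hy : ¬ p ∣ orderOf y) : ev χ (aF _ c * single (t * y) 1) = dD c θ χ t * θ.1 y := by
  haveI := Fintype.ofFinite (CS (P : Subgroup G))
  obtain ⟨l, -, hl⟩ := h.exists_sum
  have := hl χ hχ ⟨t, ht⟩ 1 (not_dvd_orderOf_one hp.out)
  rw [OneMemClass.coe_one, mul_one] at this
  rw [hl χ hχ ⟨t, ht⟩ y hy, dD, this, mul_div_cancel_right₀ _ (irr_one_ne_zero θ.2)]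

theorem char_D (h : Df M B P c θ) (hχ : IsCharacter G χ) : IsCharacter P fun t => dD c θ χ t := by
  haveI := Fintype.ofFinite (CS (P : Subgroup G))
  obtain ⟨l, -, hl⟩ := h.exists_sum
  choose m hm using fun ψ : IrrCharacter (CS (P : Subgroup G)) => inner_char_nat (char_restrict hχ _) (irr_char ψ.2)
  convert char_sum (H4.fs c) (fun ψ => (m ψ : ℂ) • hf (l ψ)) fun ψ _ => char_nsmul (char_hom _) _ using 1
  funext t
  have := hl χ (char_class hχ) t 1 (not_dvd_orderOf_one hp.out)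
  rw [OneMemClass.coe_one, mul_one] at this
  rw [dD, this, mul_div_cancel_right₀ _ (irr_one_ne_zero θ.2)]
  simp [hm]

theorem aF_fix (h : Df M B P c θ) : aF _ c ∈ H4.Fix ℂ (dT M P c) :=
  aF_mem_Fix h.hM ((Stab_le _ _).trans (NS_le_NS_CS _)) h.ind.1 (mem_Fix_Stab _ _)

theorem D_conj (h : Df M B P c θ) (hχ : IsClassFunction G χ) {y : G} (hy : y ∈ dT M P c) (t : G) :
    dD c θ χ (y * t * y⁻¹) = dD c θ χ t := by
  rw [dD, dD, ← ev_cj hχ y (_ * single t 1), map_mul (H4.cj y), cj_single, mem_Fix.1 h.aF_fix y hy]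

theorem ai_D (h : Df M B P c θ) (hχ : IsClassFunction G χ) : AI (ga P (dT M P c)) fun t : P => dD c θ χ t :=
  (ai_ga (Stab_le _ _)).2 fun y hy t t' e => by rw [e]; exact h.D_conj hχ hy t

theorem dd_eq (h : Df M B P c θ) (hχ : IsClassFunction G χ) {t : P} (ht : t ≠ 1) :
    dd p (aE M _ c) χ t = dD c θ χ t := by
  have h0 := eq_zpowers_prime h.hP t.2 fun e => ht (Subtype.ext e)
  have h1 : ∀ (H : Subgroup G) (_ : H = CS (P : Subgroup G)) (b : Set (IrrCharacter H)), IsPBlock M b →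
      aE M H b = aE M _ c → aF H b = aF _ c ∧ ∀ ξ ∈ b, ξ.1 1 = θ.1 1 := by
    rintro _ rfl b hb e
    rw [aE_inj h.hM hb h.ind.1 e]
    exact ⟨rfl, fun ξ hξ => h.eq_reg hξ (not_dvd_orderOf_one hp.out)⟩
  have h2 := (h.hm.lb h.hM h.hB t).2
  rw [h0] at h2
  obtain ⟨h3, h4⟩ := h1 _ (C1_eq_prime h.hP t.2 fun e => ht (Subtype.ext e)) _ (h.fb.ind t).1 h2.eq_of_eq
  rw [dd, dD, h4 _ (h.fb.xi_mem t), sb, reg_of_not_dvd _ (not_dvd_orderOf_one hp.out), ← h3]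
  exact congrArg (· / _) ((blockPart_shift _ (fun x : C1 (t : G) => χ x) (cEl_mem_center _) 1).trans
    (by rw [mul_one, blockPart_res_eq_ev hχ]))

theorem fs (h : Df M B P c θ) [Fintype G] [Fintype P] :
    ∃ Θ, FS (ga P (dT M P c)) M p B Θ fun χ (t : P) => dD c θ χ.1 t := by
  obtain ⟨χ₀, h1, h2⟩ := exists_height_zero h.hM h.hB
  have c0 := irr_class χ₀.2
  refine ⟨_, h.fb.toFS h1 (h.ai_D c0) (fun t ht => by rw [h.dd_eq c0 ht]) (fun t ht => ?_)
    fun χ _ => ⟨char_gen (h.char_D (irr_char χ.2)), fun t ht => by rw [h.dd_eq c0 ht, h.dd_eq (irr_class χ.2) ht]⟩⟩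
  have h3 := h.fb.red_dd ht h1 h2
  have h4 := char_mem_O (M := M) (h.char_D (irr_char χ₀.2))
  rw [h.dd_eq c0 ht, ← char_inv (h.char_D (irr_char χ₀.2)), red_mul (h4 _) (h4 _)] at h3
  exact inv_mem_O_of_red_ne_zero (left_ne_zero_of_mul h3)

theorem dade (h : Df M B P c θ) [Fintype G] [Fintype P] : ∃ ζ a δ,
    Exc (ga P (dT M P c)) p B (fun χ (t : P) => dD c θ χ.1 t) ζ a 0 δ ∧
      Nat.card (B \ ζ '' OS (ga P (dT M P c)) : Set _) = Nat.card (ga (P : Subgroup G) (dT M P c)) ∧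
      ∀ χ ∈ B \ ζ '' OS (ga P (dT M P c)), a χ = 1 ∨ a χ = -1 := by
  haveI : Nontrivial P := Finite.one_lt_card_iff_nontrivial.1 (hp.out.one_lt.trans_eq h.hP.symm)
  obtain ⟨Θ, h1⟩ := h.fs
  exact h1.dade (card_ge h.hM h.hB P h.hP h.hm)

theorem ext (h : Df M B P c θ) {χ ψ : IrrCharacter G} (hχ : χ ∈ B) (hψ : ψ ∈ B)
    (h1 : ∀ g, ¬ p ∣ orderOf g → χ.1 g = ψ.1 g) (h2 : ∀ t : P, t ≠ 1 → dD c θ χ.1 t = dD c θ ψ.1 t) : χ = ψ := by
  haveI := Fintype.ofFinite G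
  haveI := Fintype.ofFinite P
  obtain ⟨Θ, h3⟩ := h.fs
  refine Subtype.ext (funext fun g => (em (p ∣ orderOf g)).elim (fun hg => ?_) (h1 g))
  rw [h3.exp χ hχ g hg, h3.exp ψ hψ g hg]; exact congrFun (h3.congr h2) g

theorem Br_eq (h : Df M B P c θ) : Br (P : Subgroup G) (eB M B) = orb (NS (P : Subgroup G)) (aE M _ c) := by
  refine (first_main_top h.hM h.hm.bz h.hm.dg).1.eq_of_mul
    (isBI_orb_local h.hM P.isPGroup' h.hm.be Subgroup.le_normalizer (CS_le_NS _) le_rfl) ?_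
  rw [mul_orb_eq (Br_mem_Fix le_rfl (Z_le_Fix _ (eB_mem_Z B))) h.hm.mul]
  exact orb_ne_zero (NS_le_NS_CS _) h.hm.be

open Classical in
theorem sum_aF (h : Df M B P c θ) : ∑ b ∈ blocks (CS (P : Subgroup G)) M with IsInducedBlock M _ b B, aF _ b =
    Tr (dT M P c) (NS (P : Subgroup G)) (aF _ c) := by
  haveI := charP_k h.hM
  have hb : ∀ b ∈ (blocks (CS (P : Subgroup G)) M).filter fun b => IsInducedBlock M _ b B, IsPBlock M b :=
    fun b hb => (Finset.mem_filter.1 hb).2.1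
  have hc := aF_mem_IntA h.hM h.ind.1
  have hn : ∀ q ∈ cos (dT M P c) (NS (P : Subgroup G)), q.out ∈ NS (CS (P : Subgroup G)) :=
    fun q hq => NS_le_NS_CS _ (mem_cos.1 hq)
  refine idem_eq_of_redA (M := M) (sum_mem fun b h1 => aF_mem_IntA h.hM (hb b h1)) (Tr_mem_IntA _ _ hc)
    (sum_idem _ _ (fun b _ => aF_mem_ZA _ b) (fun b h1 => aF_mem_IntA h.hM (hb b h1)) (fun b _ => aF_mul_self _ b)
      fun b h1 b' h2 h3 => by
        rw [redA_aF, redA_aF]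
        exact (isBI_aE h.hM (hb b h1)).mul_eq_zero (isBI_aE h.hM (hb b' h2))
          fun e => h3 (aE_inj h.hM (hb b h1) (hb b' h2) e))
    (by
      rw [Tr_apply]
      refine sum_idem (M := M) _ _ (fun q hq => cj_mem_ZA' (hn q hq) (aF_mem_ZA _ c)) (fun q _ => cj_mem_IntA _ hc)
        (fun q _ => by rw [← map_mul, aF_mul_self]) fun q hq q' hq' h3 => ?_
      rw [redA_cj, redA_cj, redA_aF]
      refine (h.hm.be.cj' (hn q hq)).mul_eq_zero (h.hm.be.cj' (hn q' hq')) fun e => h3 ?_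
      rw [← q.out_eq', ← q'.out_eq', QuotientGroup.eq]
      exact ⟨mul_mem (inv_mem (mem_cos.1 hq)) (mem_cos.1 hq'), by rw [H4.cj_mul, ← e, cj_inv_cj]⟩)
    (ZA_comm_Fix (sum_mem fun b _ => aF_mem_ZA _ b) (mem_ZA.1 (Tr_mem_ZA (NS_le_NS_CS _) (aF_mem_ZA _ c))).1) ?_
  rw [redA_Tr _ _ hc, redA_aF, ← orb, ← h.Br_eq, redA_sum _ _ fun b h1 => aF_mem_IntA h.hM (hb b h1),
    ← mul_one (Br _ _), ← sum_aE h.hM (CS (P : Subgroup G)), Finset.mul_sum, Finset.sum_filter]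
  refine Finset.sum_congr rfl fun b h1 => ?_
  have h2 := ind_CS_iff h.hM P.isPGroup' (mem_blocks.1 h1) h.hB
  split_ifs with h3
  · rw [redA_aF, h2.1 h3]
  · exact (((isBI_aE h.hM (mem_blocks.1 h1)).prim _ (Br_mem_ZA' _ (Z_le_Fix _ (eB_mem_Z B)))
      (Br_idem P.isPGroup' (Z_le_Fix _ (eB_mem_Z B)) (eB_mul_self h.hM h.hB))).resolve_right (mt h2.2 h3)).symm

/-- values on the `p`-singular elements -/
theorem apply (h : Df M B P c θ) {χ : IrrCharacter G} (hχ : χ ∈ B) {t y : G} (ht : t ∈ (P : Subgroup G)) (h1 : t ≠ 1)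
    (hy : y ∈ CS (P : Subgroup G)) (h2 : ¬ p ∣ orderOf y) : χ.1 (t * y) = ∑ q ∈ cos (dT M P c) (NS (P : Subgroup G)),
      dD c θ χ.1 (q.out⁻¹ * t * q.out) * extendByZero _ θ.1 (q.out⁻¹ * y * q.out) := by
  classical
  have h3 := second_main_sum h.hM (fun b hb => defined_CS h.hM P.isPGroup' hb) h.hB (⟨t * y, mul_mem (h.ab ht) hy⟩ : CS _)
    (by rw [pp_mul_of_commute hp.out (hy t ht) (isPElt_of_mem hp.out P.isPGroup' ht) h2, C1_eq_prime h.hP ht h1])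
    (irr_class χ.2)
  simp only [blockPart_irr_of_mem hχ, blockPart_res_eq_ev (irr_class χ.2)] at h3
  rw [h3, ← map_sum, ← Finset.sum_mul, h.sum_aF, Tr_apply, Finset.sum_mul, map_sum]
  refine Finset.sum_congr rfl fun q hq => ?_
  have h4 := mem_cos.1 hq
  have h5 : q.out⁻¹ * y * q.out ∈ CS (P : Subgroup G) := (Subgroup.mem_normalizer_iff''.1 (NS_le_NS_CS _ h4) y).1 hy
  rw [extendByZero_of_mem _ _ h5, ← h.ev_eq (irr_class χ.2) ((Subgroup.mem_normalizer_iff''.1 h4 t).1 ht) (y := ⟨_, h5⟩)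
    (by rw [← Subgroup.orderOf_coe]; rwa [← H4.orderOf_conj y q.out⁻¹, inv_inv] at h2),
    ← ev_cj (irr_class χ.2) q.out (aF _ _ * _), map_mul (H4.cj _), cj_single]
  congr 3; simp [mul_assoc]

theorem apply_one (h : Df M B P c θ) {χ : IrrCharacter G} (hχ : χ ∈ B) {t : G} (ht : t ∈ (P : Subgroup G)) (h1 : t ≠ 1) :
    χ.1 t = (∑ q ∈ cos (dT M P c) (NS (P : Subgroup G)), dD c θ χ.1 (q.out⁻¹ * t * q.out)) * θ.1 1 := by
  have := h.apply hχ ht h1 (one_mem _) (not_dvd_orderOf_one hp.out)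
  simp only [mul_one, inv_mul_cancel, extendByZero_of_mem _ _ (one_mem _)] at this
  rw [this, Finset.sum_mul]; rfl

theorem modEq (h : Df M B P c θ) {χ : IrrCharacter G} (hχ : χ ∈ B) {n : ℤ}
    (h1 : ∀ t : P, t ≠ 1 → red M (dD c θ χ.1 t) = n) :
    (charDegree χ.1 : ℤ) ≡ n * ((dT M P c).relIndex (NS (P : Subgroup G)) * charDegree θ.1 : ℕ) [ZMOD p] := by
  haveI : Nontrivial P := Finite.one_lt_card_iff_nontrivial.1 (hp.out.one_lt.trans_eq h.hP.symm)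
  obtain ⟨t, ht⟩ := exists_ne (1 : P)
  have h2 : ∀ q ∈ cos (dT M P c) (NS (P : Subgroup G)), q.out⁻¹ * t * q.out ∈ (P : Subgroup G) := fun q hq =>
    (Subgroup.mem_normalizer_iff''.1 (mem_cos.1 hq) t).1 t.2
  have h3 := fun q hq => char_mem_O (M := M) (h.char_D (irr_char χ.2)) ⟨_, h2 q hq⟩
  refine modEq_of_red h.hM (irr_char χ.2) ?_
  rw [red_char_pelt h.hM (irr_char χ.2) (isPElt_of_mem hp.out P.isPGroup' t.2),
    h.apply_one hχ t.2 fun e => ht (Subtype.ext e), red_mul (sum_mem h3) (irr_mem_O _ _), red_sum _ _ h3,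
    Finset.sum_congr rfl fun q hq => h1 ⟨_, h2 q hq⟩ fun e => ht (Subtype.ext
      (conj_eq_one_iff.1 (by simpa using congrArg Subtype.val e : q.out⁻¹ * t * q.out⁻¹⁻¹ = 1))),
    Finset.sum_const, card_cos (Stab_le _ _), irr_one_eq, red_natCast]
  push_cast; ring

theorem canon (h : Df M B P c θ) {ψ : IrrCharacter (CS (P : Subgroup G))} (hψ : ψ ∈ c)
    (h1 : ∀ x : CS (P : Subgroup G), (x : G) ∈ (P : Subgroup G) → ψ.1 x = ψ.1 1) : ψ = θ :=
  (exists_canon h.hM h.ind.1 (dg_of_ind h.hM h.ab (CS_le_NS _) h.ind h.dg) sup_CS_top).unique ⟨hψ, h1⟩ ⟨h.mem, h.ker⟩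

theorem mem_T (h : Df M B P c θ) {g : G} : g ∈ dT M P c ↔ g ∈ NS (P : Subgroup G) ∧
    ∀ y y' : CS (P : Subgroup G), (y' : G) = g * y * g⁻¹ → θ.1 y' = θ.1 y := by
  rw [mem_Stab_iff h.hM h.ind.1]
  refine and_congr_right fun hg => ⟨fun h1 => ?_, fun h1 => ⟨NS_le_NS_CS _ hg, fun ψ hψ => ?_⟩⟩
  · obtain ⟨ψ, h2, h3⟩ := h1.2 θ h.mem
    have h4 := h3 1 1 (by simp)
    rwa [h.canon h2 fun x hx => by
      rw [h4, h3 ⟨g⁻¹ * x * g, (Subgroup.mem_normalizer_iff''.1 h1.1 x).1 x.2⟩ x (by simp [mul_assoc]),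
        h.ker _ ((Subgroup.mem_normalizer_iff''.1 hg x).1 hx)]] at h3
  · let f := ((CS (P : Subgroup G)).normalizerMonoidHom ⟨g, NS_le_NS_CS _ hg⟩).symm
    refine ⟨⟨_, irr_comp_equiv ψ.2 f⟩, mem_of_reg h.hM h.ind.1 h.mem fun y hy => ?_, fun y y' e => ?_⟩
    · show _ = ψ.1 (f y)
      rw [h.eq_reg hψ (by rwa [f.orderOf_eq]), h1 (f y) y (congrArg Subtype.val (f.symm_apply_apply y)).symm]
    · exact congrArg ψ.1 (f.symm.injective ((f.symm_apply_apply _).trans (Subtype.ext e)))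

theorem D_formula (h : Df M B P c θ) [Fintype (CS (P : Subgroup G))] (hχ : IsClassFunction G χ) {t : G}
    (ht : t ∈ (P : Subgroup G)) : dD c θ χ t = p * classInner (fun y : CS (P : Subgroup G) => χ (t * y)) (reg p θ.1) := by
  haveI := Fintype.ofFinite G
  have h0 : (⟨t, h.ab ht⟩ : CS (P : Subgroup G)) ∈ Subgroup.center _ :=
    Subgroup.mem_center_iff.2 fun y => Subtype.ext (y.2 t ht).symm
  have h1 : sb p ⟨t, h.ab ht⟩ c χ = dD c θ χ t • reg p θ.1 := funext fun y => by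
    by_cases hy : p ∣ orderOf y
    · rw [sb, Pi.smul_apply, reg_of_dvd _ hy, reg_of_dvd _ hy, smul_zero]
    · rw [sb, Pi.smul_apply, reg_of_not_dvd _ hy, reg_of_not_dvd _ hy, smul_eq_mul, ← h.ev_eq hχ ht hy]
      exact (blockPart_shift _ (fun x : CS (P : Subgroup G) => χ x) h0 y).trans (blockPart_res_eq_ev hχ c _)
  have h2 := inner_sb h.hM h.ind.1 ⟨t, h.ab ht⟩ χ (Submodule.subset_span ⟨θ, h.mem, rfl⟩)
  rw [h1, H3.inner_smul_left] at h2
  rw [← h2, mul_left_comm, h.loc.2.2, mul_one]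

theorem D_gal (h : Df M B P c θ) (σ : ℂ →+* ℂ) (hσ : ∀ y, ¬ p ∣ orderOf y → σ (θ.1 y) = θ.1 y)
    (hχ : IsClassFunction G χ) {t : G} (ht : t ∈ (P : Subgroup G)) : dD c θ (fun g => σ (χ g)) t = σ (dD c θ χ t) := by
  haveI := Fintype.ofFinite (CS (P : Subgroup G))
  rw [h.D_formula hχ ht, h.D_formula (fun g x => congrArg σ (hχ g x)) ht]
  simp only [classInner, map_mul, map_sum, map_natCast, map_inv₀]
  congr 2
  refine Finset.sum_congr rfl fun y _ => congrArg _ ?_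
  by_cases hy : p ∣ orderOf y
  · simp [reg_of_dvd _ hy]
  · rw [reg_of_not_dvd _ hy, ringHom_conj_gen σ (irr_gen θ.2), hσ y hy]

end Df

theorem exists_ringEquiv (σ : ℂ →+* ℂ) : ∃ τ : ℂ ≃+* ℂ, ∀ x, IsAlgebraic ℚ x → τ x = σ x := by
  let K := algebraicClosure ℚ ℂ
  let φ : K →ₐ[ℚ] K := (σ.toRatAlgHom.comp K.val).codRestrict K.toSubalgebra fun x =>
    mem_algebraicClosure_iff.2 ((mem_algebraicClosure_iff.1 x.2).algHom σ.toRatAlgHom)
  haveI : Algebra.IsAlgebraic ℚ K := algebraicClosure.isAlgebraic ℚ ℂ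
  let φ' := AlgEquiv.ofBijective φ (Algebra.IsAlgebraic.algHom_bijective φ)
  obtain ⟨s, hv⟩ := exists_isTranscendenceBasis K ℂ
  haveI := IsAlgClosed.isAlgClosure_of_transcendence_basis _ hv
  refine ⟨IsAlgClosure.equivOfEquiv ℂ ℂ (hv.1.aevalEquiv.symm.toRingEquiv.trans
    ((MvPolynomial.mapEquiv s φ'.toRingEquiv).trans hv.1.aevalEquiv.toRingEquiv)), fun x hx => ?_⟩
  let y : K := ⟨x, mem_algebraicClosure_iff.2 hx⟩
  refine (IsAlgClosure.equivOfEquiv_algebraMap ℂ ℂ _ (algebraMap K _ y)).trans ?_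
  have e : hv.1.aevalEquiv.symm (algebraMap K _ y) = MvPolynomial.C y := AlgEquiv.commutes _ y
  simp only [RingEquiv.trans_apply, AlgEquiv.coe_ringEquiv, AlgEquiv.toRingEquiv_eq_coe, e, MvPolynomial.mapEquiv_apply,
    MvPolynomial.map_C]
  exact congrArg _ (hv.1.aevalEquiv.commutes _)

theorem fixes_roots (σ : ℂ →+* ℂ) {n : ℕ} (hn : n ≠ 0) (h : σ (Complex.exp (2 * Real.pi * Complex.I / n)) =
    Complex.exp (2 * Real.pi * Complex.I / n)) (x : ℂ) (hx : x ^ n = 1) : σ x = x ^ 1 := by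
  haveI : NeZero n := ⟨hn⟩
  obtain ⟨i, -, rfl⟩ := (Complex.isPrimitiveRoot_exp n hn).eq_pow_of_pow_eq_one hx
  rw [map_pow, h, pow_one]

theorem gal_os (σ : ℂ →+* ℂ) {A : Type*} [Group A] [Fintype A] (Γ : Subgroup (MulAut A)) (l : A →* ℂˣ) (t : A) :
    σ (os Γ l t) = os Γ ((Units.map (σ : ℂ →* ℂ)).comp l) t := by simp [os_apply]

theorem exists_pow_hom {A : Type*} [Group A] [Finite A] (hA : Nat.card A = p) {l l' : A →* ℂˣ} (hl : l ≠ 1)
    (hl' : l' ≠ 1) : ∃ m, ¬ p ∣ m ∧ l' = l ^ m := by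
  haveI := isCyclic_of_prime_card hA
  have h0 : Nat.card (⊤ : Subgroup (A →* ℂˣ)) = p := by
    rw [Subgroup.card_top, card_hom_of_comm fun a b => (IsCyclic.commGroup).mul_comm a b, hA]
  have h1 := eq_zpowers_prime h0 (Subgroup.mem_top l) hl
  obtain ⟨m, rfl⟩ := (Submonoid.mem_powers_iff _ _).1 (mem_powers_iff_mem_zpowers.2 (h1 ▸ Subgroup.mem_top l'))
  refine ⟨m, fun h => hl' (orderOf_dvd_iff_pow_eq_one.1 ?_), rfl⟩
  rwa [← Nat.card_zpowers, h1, h0]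

end H3
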