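import Cfsg.Agent.H3.Gl2
import Cfsg.Agent.H3.Chr3
import Cfsg.Agent.H3.Dade

/-!
H3.Mu: natural-number multiplicities `mu C a b` of characters restricted to a subgroup `C`,
and the trivial-intersection norm inequality.
-/

set_option autoImplicit false
open Cfsg
open scoped ComplexConjugate

namespace H3

universe u
variable {G : Type u} [Group G] [Finite G]

abbrev ChOn (C : Subgroup G) (f : G → ℂ) : Prop := IsCharacter C fun c : C => f c

noncomputable def mu (C : Subgroup G) (a b : G → ℂ) : ℕ := ⌊(ion C a b).re⌋₊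

omit [Finite G] in
theorem IrrOn.ch {C : Subgroup G} {f : G → ℂ} (h : IrrOn C f) : ChOn C f := irr_char h.1

omit [Finite G] in
theorem ChOn.le {C D : Subgroup G} {f : G → ℂ} (h : ChOn C f) (hD : D ≤ C) : ChOn D f :=
  char_comp h (Subgroup.inclusion hD)

omit [Finite G] in
theorem IrrOn.one_ne {C : Subgroup G} {f : G → ℂ} (h : IrrOn C f) : f 1 ≠ 0 :=
  (irr_one_ne_zero h.1 :)

omit [Finite G] in
theorem chOn_of_char {f : G → ℂ} (h : IsCharacter G f) (C : Subgroup G) : ChOn C f :=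
  char_restrict h C

omit [Finite G] in
theorem chOn_one (C : Subgroup G) : ChOn C fun _ => 1 := char_one

theorem irrOn_top {f : G → ℂ} : IrrOn ⊤ f ↔ IsIrrCharacter G f :=
  ⟨fun h => irr_comp_equiv h.1 Subgroup.topEquiv.symm,
    fun h => ⟨irr_comp_equiv h Subgroup.topEquiv, fun x hx => absurd (Subgroup.mem_top x) hx⟩⟩

theorem mu_eq {C : Subgroup G} {a b : G → ℂ} (ha : ChOn C a) (hb : ChOn C b) :
    ion C a b = mu C a b := by
  have := Fintype.ofFinite C
  obtain ⟨n, hn⟩ := inner_char_nat ha hb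
  rw [mu, ion_eq, hn]; simp

theorem mu_congr {C : Subgroup G} {a b a' b' : G → ℂ} (ha : ∀ c ∈ C, a c = a' c)
    (hb : ∀ c ∈ C, b c = b' c) : mu C a b = mu C a' b' := by
  have := Fintype.ofFinite C
  rw [mu, mu, ion_eq, ion_eq]
  congr 3
  · exact funext fun c => ha c c.2
  · exact funext fun c => hb c c.2

theorem mu_symm {C : Subgroup G} {a b : G → ℂ} (ha : ChOn C a) (hb : ChOn C b) :
    mu C a b = mu C b a := by
  have := Fintype.ofFinite C
  rw [mu, mu, ion_eq, ion_eq, inner_char_symm ha hb]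

theorem mu_top [Fintype G] {a b : G → ℂ} (ha : IsCharacter G a) (hb : IsCharacter G b) :
    classInner a b = mu ⊤ a b := by
  have := Fintype.ofFinite (⊤ : Subgroup G)
  rw [← mu_eq (chOn_of_char ha _) (chOn_of_char hb _), ion_eq]
  exact (inner_comp_equiv Subgroup.topEquiv a b).symm

theorem mu_trans {C D : Subgroup G} (h : D ≤ C) {a b : G → ℂ} (ha : ChOn C a) (hb : ChOn D b) :
    mu D a b = ∑ γ ∈ irrs C, mu C a γ * mu D γ b := by
  have := ion_trans' h (char_class ha) b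
  rw [mu_eq (ha.le h) hb, Finset.sum_congr rfl fun γ hγ => by
    rw [mu_eq ha (mem_irrs.1 hγ).ch, mu_eq ((mem_irrs.1 hγ).ch.le h) hb]] at this
  exact_mod_cast this

theorem mu_self {C : Subgroup G} {a : G → ℂ} (ha : ChOn C a) :
    mu C a a = ∑ γ ∈ irrs C, mu C a γ ^ 2 := by
  rw [mu_trans le_rfl ha ha]
  exact Finset.sum_congr rfl fun γ hγ => by rw [mu_symm (mem_irrs.1 hγ).ch ha, sq]

theorem mu_irr {C : Subgroup G} {a : G → ℂ} (ha : IrrOn C a) : mu C a a = 1 := by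
  have := mu_eq ha.ch ha.ch
  rw [ion_self ha] at this
  exact_mod_cast this.symm

theorem mu_irr_ne {C : Subgroup G} {a b : G → ℂ} (ha : IrrOn C a) (hb : IrrOn C b) (h : a ≠ b) :
    mu C a b = 0 := by
  by_contra e
  exact h (ha.eq_of_ion hb (by rw [mu_eq ha.ch hb.ch]; exact_mod_cast e))

theorem mu_le_one {C : Subgroup G} {a b : G → ℂ} (ha : IsIrrCharacter C fun c : C => a c)
    (hb : IsIrrCharacter C fun c : C => b c) : mu C a b ≤ 1 := by
  classical
  have := Fintype.ofFinite C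
  have e := mu_eq (irr_char ha) (irr_char hb)
  rw [ion_eq, irr_inner ha hb] at e
  split_ifs at e
  · have : mu C a b = 1 := by exact_mod_cast e.symm
    omega
  · have : mu C a b = 0 := by exact_mod_cast e.symm
    omega

theorem mu_cf {C : Subgroup G} {x : G} (hx : x ∈ Subgroup.normalizer (C : Set G)) (a b : G → ℂ) :
    mu C (cf x a) (cf x b) = mu C a b := by rw [mu, mu, ion_cf hx]

theorem apply_sum {C : Subgroup G} {a : G → ℂ} (ha : ChOn C a) {x : G} (hx : x ∈ C) :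
    a x = ∑ γ ∈ irrs C, mu C a γ * γ x := by
  have := Fintype.ofFinite C
  rw [← sum_irrs C fun γ => (mu C a γ : ℂ) * γ x]
  refine (class_apply_eq_sum (char_class ha) ⟨x, hx⟩).trans (Finset.sum_congr rfl fun γ _ => ?_)
  rw [← mu_eq ha (irrOn_ext γ.2).ch, ion_eq, extendByZero_of_mem _ _ hx]
  simp only [extendByZero_coe]

omit [Finite G] in
theorem ChOn.deg {C : Subgroup G} {a : G → ℂ} (ha : ChOn C a) : a 1 = charDegree a := by
  obtain ⟨n, hn⟩ := char_one_nat ha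
  have : a 1 = n := hn
  rw [deg_of_eq this, this]

omit [Finite G] in
theorem IrrOn.deg_pos {C : Subgroup G} {a : G → ℂ} (ha : IrrOn C a) : 0 < charDegree a := by
  obtain ⟨n, h0, hn⟩ := irr_one_nat ha.1
  have : a 1 = n := hn
  rwa [deg_of_eq this]

theorem deg_sum {C : Subgroup G} {a : G → ℂ} (ha : ChOn C a) :
    charDegree a = ∑ γ ∈ irrs C, mu C a γ * charDegree γ := by
  have := apply_sum ha C.one_mem
  rw [ha.deg, Finset.sum_congr rfl fun γ hγ => by rw [(mem_irrs.1 hγ).ch.deg]] at this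
  exact_mod_cast this

theorem sum_mu_le_deg {C : Subgroup G} {a : G → ℂ} (ha : ChOn C a) :
    ∑ γ ∈ irrs C, mu C a γ ≤ charDegree a := by
  rw [deg_sum ha]
  exact Finset.sum_le_sum fun γ hγ => Nat.le_mul_of_pos_right _ (mem_irrs.1 hγ).deg_pos

theorem sum_norm_mu {C : Subgroup G} [Fintype C] {a : G → ℂ} (ha : ChOn C a) :
    ∑ c : C, ‖a c‖ ^ 2 = Nat.card C * mu C a a := by
  have e := mu_eq ha ha
  rw [ion_eq, inner_self_eq] at e
  have e' : (Nat.card C : ℝ)⁻¹ * ∑ c : C, ‖a c‖ ^ 2 = mu C a a := by exact_mod_cast e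
  have : (Nat.card C : ℝ) ≠ 0 := by exact_mod_cast Nat.card_pos.ne'
  rw [← e']; field_simp

theorem mu_self_pos {C : Subgroup G} {a : G → ℂ} (ha : ChOn C a) (h : a 1 ≠ 0) : 0 < mu C a a := by
  have := Fintype.ofFinite C
  refine Nat.pos_of_ne_zero fun e => h ?_
  have e' := mu_eq ha ha
  rw [e, ion_eq, Nat.cast_zero] at e'
  exact congrFun (inner_self_eq_zero e') 1

theorem mu_mul_le {C D : Subgroup G} (h : D ≤ C) {a b γ : G → ℂ} (ha : ChOn C a) (hb : ChOn D b)
    (hγ : IrrOn C γ) : mu C a γ * mu D γ b ≤ mu D a b := by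
  rw [mu_trans h ha hb]
  exact Finset.single_le_sum (f := fun γ => mu C a γ * mu D γ b) (fun _ _ => Nat.zero_le _)
    (mem_irrs.2 hγ)

theorem mu_anti {C D : Subgroup G} (h : D ≤ C) {a b : G → ℂ} (ha : ChOn C a) (hb : ChOn C b) :
    mu C a b ≤ mu D a b := by
  rw [mu_trans h ha (hb.le h), mu_trans le_rfl ha hb]
  refine Finset.sum_le_sum fun γ hγ => Nat.mul_le_mul_left _ ?_
  have hγ := mem_irrs.1 hγ
  rw [mu_symm hγ.ch hb, mu_symm (hγ.ch.le h) (hb.le h)]
  exact le_trans (Nat.le_mul_of_pos_right _ (mu_self_pos (hγ.ch.le h) hγ.one_ne))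
    (mu_mul_le h hb (hγ.ch.le h) hγ)

theorem mu_le_sq {C V : Subgroup G} (h : V ≤ C)
    (hV : ∀ θ, IrrOn C θ → IsIrrCharacter V fun v : V => θ v) {a : G → ℂ} (ha : ChOn C a) :
    mu V a a ≤ (∑ γ ∈ irrs C, mu C a γ) ^ 2 := by
  rw [mu_trans h ha (ha.le h), sq, Finset.sum_mul]
  refine Finset.sum_le_sum fun γ hγ => Nat.mul_le_mul_left _ ?_
  have hγ := mem_irrs.1 hγ
  rw [mu_symm (hγ.ch.le h) (ha.le h), mu_trans h ha (hγ.ch.le h)]
  refine Finset.sum_le_sum fun δ hδ => ?_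
  exact (Nat.mul_le_mul_left _ (mu_le_one (hV _ (mem_irrs.1 hδ)) (hV _ hγ))).trans (by simp)

theorem mu_mul_conj {C : Subgroup G} (a : G → ℂ) :
    mu C (fun g => a g * conj (a g)) (fun _ => 1) = mu C a a := by
  have := Fintype.ofFinite C
  rw [mu, mu, ion_eq, ion_eq]
  have := inner_mul_left (fun c : C => a c) (fun c : C => conj (a c)) (fun _ => 1)
  congr 2
  refine Eq.trans this ?_
  congr 1
  ext; simp

theorem mu_add_left {C : Subgroup G} {a b c : G → ℂ} (ha : ChOn C a) (hb : ChOn C b)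
    (hc : ChOn C c) (n : ℕ) : mu C (fun g => n * a g + b g) c = n * mu C a c + mu C b c := by
  have := Fintype.ofFinite C
  have h1 : ChOn C fun g => n * a g + b g := char_add (char_nsmul ha n) hb
  have e := mu_eq h1 hc
  have e1 := inner_add_left ((n : ℂ) • fun x : C => a x) (fun x : C => b x) fun x : C => c x
  rw [inner_smul_left, ← ion_eq, ← ion_eq, mu_eq ha hc, mu_eq hb hc] at e1
  rw [ion_eq] at e
  exact_mod_cast e.symm.trans e1

/-- if all constituents of `a` on `C` are constant on `x`, so is `a` -/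
theorem apply_eq_one_of {C : Subgroup G} {a : G → ℂ} (ha : ChOn C a) {x : G} (hx : x ∈ C)
    (h : ∀ γ, IrrOn C γ → mu C a γ ≠ 0 → γ x = γ 1) : a x = a 1 := by
  rw [apply_sum ha hx, apply_sum ha C.one_mem]
  refine Finset.sum_congr rfl fun γ hγ => ?_
  by_cases e : mu C a γ = 0
  · simp [e]
  · rw [h γ (mem_irrs.1 hγ) e]

noncomputable def oneOn (C : Subgroup G) : G → ℂ := extendByZero C fun _ => 1

omit [Finite G] in
theorem irrOn_oneOn (C : Subgroup G) : IrrOn C (oneOn C) := irrOn_ext isIrr_one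

omit [Finite G] in
theorem oneOn_apply {C : Subgroup G} {x : G} (hx : x ∈ C) : oneOn C x = 1 :=
  extendByZero_of_mem _ _ hx

theorem mu_oneOn (C : Subgroup G) (a : G → ℂ) : mu C a (oneOn C) = mu C a fun _ => 1 :=
  mu_congr (fun _ _ => rfl) fun _ h => oneOn_apply h

theorem mu_const {C : Subgroup G} {a : G → ℂ} (ha : ChOn C a) (h : ∀ x ∈ C, a x = a 1) :
    mu C a (fun _ => 1) = charDegree a := by
  have := Fintype.ofFinite C
  have e := mu_eq ha (chOn_one C)
  have e1 := inner_smul_left (a 1) (fun _ : C => (1 : ℂ)) fun _ => 1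
  rw [irr_inner_self isIrr_one, mul_one, ha.deg] at e1
  rw [ion_eq, show (fun x : C => a x) = (charDegree a : ℂ) • fun _ => (1 : ℂ) from
    funext fun x => by simp [h x x.2, ha.deg], e1] at e
  exact_mod_cast e.symm

/-- equal norms on an abelian subgroup force linear constituents -/
theorem comm_of_mu_eq {P K : Subgroup G} (h : P ≤ K) (hP : ∀ a ∈ P, ∀ b ∈ P, a * b = b * a)
    {χ : G → ℂ} (hχ : ChOn K χ) (e : mu P χ χ = mu K χ χ) {a b : G} (ha : a ∈ K) (hb : b ∈ K) :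
    χ (a * b * a⁻¹ * b⁻¹) = χ 1 := by
  have := Fintype.ofFinite P
  refine apply_eq_one_of hχ (K.mul_mem (K.mul_mem (K.mul_mem ha hb) (K.inv_mem ha))
    (K.inv_mem hb)) fun γ hγ h0 => ?_
  rw [mu_trans h hχ (hχ.le h), mu_trans le_rfl hχ hχ] at e
  have e1 := (Finset.sum_eq_sum_iff_of_le fun δ hδ => Nat.mul_le_mul_left _
    (mu_anti h (mem_irrs.1 hδ).ch hχ)).1 e.symm γ (mem_irrs.2 hγ)
  have e2 := Nat.eq_of_mul_eq_mul_left (Nat.pos_of_ne_zero h0) e1
  have e3 := mu_mul_le h hχ (hγ.ch.le h) hγ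
  rw [mu_symm (hχ.le h) (hγ.ch.le h), ← e2, mu_symm hγ.ch hχ] at e3
  have e4 : mu P γ γ = 1 := le_antisymm (by
    by_contra hc
    have : 2 ≤ mu P γ γ := by omega
    have := Nat.mul_le_mul_left (mu K χ γ) this
    omega) (mu_self_pos (hγ.ch.le h) hγ.one_ne)
  have e5 : IsIrrCharacter P fun x : P => γ x := isIrr_of_norm_one (hγ.ch.le h) (by
    rw [← ion_eq, mu_eq (hγ.ch.le h) (hγ.ch.le h), e4, Nat.cast_one])
  have e6 : γ 1 = 1 := (irr_degree_one_of_comm e5 fun a b => Subtype.ext (hP _ a.2 _ b.2) :)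
  obtain ⟨f, hf⟩ := exists_hom_of_degree_one hγ.ch e6
  have := congrFun hf (⟨a, ha⟩ * ⟨b, hb⟩ * ⟨a, ha⟩⁻¹ * ⟨b, hb⟩⁻¹)
  rw [e6]
  refine this.trans ?_
  simp only [map_mul, map_inv]
  rw [mul_comm (f ⟨a, ha⟩)]; simp

open Classical in
theorem sum_ti [Fintype G] {A : Set G} {L : Subgroup G} (h1 : (1 : G) ∉ A) (hAL : A ⊆ L)
    (hn : ∀ x ∈ L, ∀ a ∈ A, x * a * x⁻¹ ∈ A) (hTI : ∀ g, g ∉ L → ∀ a ∈ A, g * a * g⁻¹ ∉ A)
    {χ : G → ℂ} (hχ : IsClassFunction G χ) :
    (Nat.card L : ℝ)⁻¹ * ∑ a : G, (if a ∈ A then ‖χ a‖ ^ 2 else 0) ≤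
      (Nat.card G : ℝ)⁻¹ * (∑ g : G, ‖χ g‖ ^ 2 - ‖χ 1‖ ^ 2) := by
  have := Fintype.ofFinite L
  have hD := dade_of_ti h1 hAL hn hTI
  have e := Dade.norm_le hD hχ (ψ := fun a => χ a) fun a _ => by simp
  have e1 : ∑ a : G, (if a ∈ A then ‖χ a‖ ^ 2 else 0) =
      ∑ a : L, (if (a : G) ∈ A then ‖χ a‖ ^ 2 else 0) := by
    rw [← Finset.sum_subtype (Finset.univ.filter (· ∈ L)) (by simp)
      fun a => if a ∈ A then ‖χ a‖ ^ 2 else 0, Finset.sum_filter]
    refine Finset.sum_congr rfl fun a _ => ?_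
    split_ifs with h2 h3 <;> first | rfl | exact absurd (hAL h2) h3
  rw [e1]
  refine e.trans (mul_le_mul_of_nonneg_left ?_ (by positivity))
  rw [← Finset.add_sum_erase _ _ (Finset.mem_univ 1), ← Finset.add_sum_erase _
    (fun g => ‖χ g‖ ^ 2) (Finset.mem_univ 1), if_neg (Dade.one_not_mem_supp hD), zero_add,
    add_sub_cancel_left]
  exact Finset.sum_le_sum fun g _ => by split_ifs <;> first | rfl | positivity

end H3
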