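import Cfsg.Agent.H3.SelfC
import Cfsg.Agent.H3.Mu
import Cfsg.Agent.H3.CycTI

/-!
H3.Dtwo: a self-centralizing element of odd prime order `p` whose normalizer has order `2p`.
-/

set_option autoImplicit false
open Cfsg Subgroup
open scoped Pointwise ComplexConjugate

namespace H3

universe u
variable {G : Type u} [Group G]

theorem inner_congr_off [Fintype G] {α a b : G → ℂ} (h0 : α 1 = 0) (h : ∀ y, y ≠ 1 → a y = b y) :
    classInner α a = classInner α b :=
  congrArg (_ * ·) (Finset.sum_congr rfl fun y _ => by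
    by_cases hy : y = 1
    · simp [hy, h0]
    · rw [h y hy])

theorem re_sq_le [Finite G] {χ : G → ℂ} (h : IsCharacter G χ) (g : G) :
    (χ 1).re - (χ (g * g)).re ≤ 4 * ((χ 1).re - (χ g).re) := by
  obtain ⟨s, h1, h2, -, h4, h5⟩ := char_eigen' h g
  have h6 := h5 2
  rw [zpow_two] at h6
  rw [h1, h2, h6]
  clear h1 h2 h5 h6
  induction s using Multiset.induction_on with
  | empty => simp
  | cons a s ih =>
    have := ih fun x hx => h4 x (Multiset.mem_cons_of_mem hx)
    have e := h4 a (Multiset.mem_cons_self _ _)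
    have e2 : a.re ^ 2 + a.im ^ 2 = 1 := by
      rw [← one_pow 2, ← e, Complex.sq_norm, Complex.normSq_apply]; ring
    simp only [Multiset.card_cons, Multiset.map_cons, Multiset.sum_cons, zpow_two, Complex.add_re,
      Complex.mul_re, Nat.cast_add, Nat.cast_one, Complex.one_re] at this ⊢
    nlinarith [sq_nonneg (a.re - 1)]

theorem card_dvd_of_sylow [Finite G] {n : ℕ} (hn : n ≠ 0)
    (h : ∀ r : ℕ, r.Prime → ∀ R : Sylow r G, Nat.card R ∣ n) : Nat.card G ∣ n := by
  refine (Nat.factorization_prime_le_iff_dvd Nat.card_pos.ne' hn).1 fun r hr => ?_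
  have := Fact.mk hr
  have := h r hr default
  rwa [Sylow.card_eq_multiplicity, hr.pow_dvd_iff_le_factorization hn] at this

theorem card_dvd_of_const [Finite G] {χ : G → ℂ} (h : IsGeneralizedCharacter G χ) (S : Subgroup G)
    {c d : ℕ} (h1 : χ 1 = c + d) (h2 : ∀ s ∈ S, s ≠ 1 → χ s = c) : Nat.card S ∣ d := by
  obtain ⟨k, hk⟩ := card_dvd_of_vanish (gen_sub (gen_restrict h S) (gen_zsmul gen_one c))
    fun s hs => by simp [h2 s s.2 fun e => hs (Subtype.ext e)]
  have : (d : ℤ) = Nat.card S * k := by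
    have : (d : ℂ) = Nat.card S * k := by rw [← hk]; simp [h1]
    exact_mod_cast this
  exact_mod_cast Dvd.intro _ this.symm

variable {p : ℕ} [hp : Fact p.Prime]

structure D2 (p : ℕ) (x : G) : Prop extends SC p x where
  two : Nat.card (normalizer (zpowers x : Set G)) = 2 * p
  five : 5 ≤ p

noncomputable def dbeta [Fintype G] (x : G) (l : zpowers x →* ℂˣ) : G → ℂ :=
  indFun (zpowers x) (hf 1 - hf l)

noncomputable def dtheta [Fintype G] (x : G) (χ : G → ℂ) (l : zpowers x →* ℂˣ) : G → ℂ :=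
  dbeta x l - (fun _ => 1) + χ

theorem SC.cen_of [Finite G] {x : G} (h : SC p x) {y : G} (hy : y ∈ zpowers x) (h1 : y ≠ 1) :
    centralizer {y} = zpowers x := by
  refine le_antisymm (fun g hg => h.cen.le ?_) fun g hg =>
    mem_centralizer_singleton_iff.2 (H1.comm_of_mem inferInstance hg hy)
  obtain ⟨n, rfl⟩ := h.le_of_ne hy h1 (mem_zpowers y) (mem_zpowers x)
  exact mem_centralizer_singleton_iff.2
    (Commute.zpow_right (mem_centralizer_singleton_iff.1 hg) n)

theorem SC.ti [Finite G] {x : G} (h : SC p x) {y g : G} (hy : y ∈ zpowers x) (h1 : y ≠ 1)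
    (hg : g * y * g⁻¹ ∈ zpowers x) : g ∈ normalizer (zpowers x : Set G) :=
  H1.mem_normalizer_iff_conj_mem.2 (H1.conj_smul_le_iff.1 (H1.conj_smul_le_iff_le.2
    (h.le_of_ne hy h1 (H1.mem_conj_smul.2 (by simpa using hg)))))

theorem SC.eq_one [Finite G] {x : G} (h : SC p x) {y : G} (hy : y ∈ zpowers x)
    (h1 : ¬ p ∣ orderOf y) : y = 1 :=
  orderOf_eq_one_iff.1 (((Nat.dvd_prime hp.out).1
    (h.card ▸ H1.orderOf_dvd_card_of_mem hy)).resolve_right fun e => h1 e.symm.dvd)

/-- elements commuting with a non-trivial `p`-regular element are `p`-regular -/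
theorem SC.reg [Finite G] {x : G} (h : SC p x) {u g : G} (hu : ¬ p ∣ orderOf u) (h1 : u ≠ 1)
    (hc : Commute g u) : ¬ p ∣ orderOf g := fun e => by
  obtain ⟨y, ⟨n, rfl⟩, hy⟩ := H1.exists_pow_orderOf_eq e
  obtain ⟨k, -, hk⟩ := h.syl.exists_conj_mem (mem_top (g ^ n)) ⟨1, by simpa using hy⟩
  have e1 : k * g ^ n * k⁻¹ ≠ 1 := by simpa using H1.ne_one_of_orderOf_prime hp.out hy
  have e2 : k * u * k⁻¹ ∈ zpowers x := (h.cen_of hk e1).le (mem_centralizer_singleton_iff.2 (by
    have := (hc.zpow_left n).eq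
    calc _ = k * (u * g ^ n) * k⁻¹ := by group
      _ = _ := by rw [← this]; group))
  exact h1 (by simpa using h.eq_one e2 (by rwa [H1.orderOf_conj]))

theorem exists_d2 [Finite G] (P : Sylow p G) (h5 : 5 ≤ p) (hG : p ∣ Nat.card G)
    (hN : Nat.card (normalizer ((P : Subgroup G) : Set G)) = 2 * p)
    (h : ¬ normalizer ((P : Subgroup G) : Set G) ≤ centralizer ((P : Subgroup G) : Set G)) :
    ∃ x, D2 p x ∧ (P : Subgroup G) = zpowers x := by
  have k : ∀ n, p ∣ n → n ∣ 2 * p → n = p ∨ n = 2 * p := by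
    rintro _ ⟨n, rfl⟩ e
    rw [mul_comm 2] at e
    rcases (Nat.dvd_prime Nat.prime_two).1 (Nat.dvd_of_mul_dvd_mul_left hp.out.pos e) with
      rfl | rfl <;> simp [mul_comm]
  have h1 : Nat.card P = p := (k _ (P.dvd_card_of_dvd_card hG)
    (hN ▸ card_dvd_of_le le_normalizer)).resolve_right fun e => by
      obtain ⟨n, hn⟩ := P.isPGroup'.exists_card_eq
      have := (Nat.prime_dvd_prime_iff_eq Nat.prime_two hp.out).1
        (Nat.prime_two.dvd_of_dvd_pow (hn ▸ e ▸ dvd_mul_right 2 p))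
      omega
  obtain ⟨x, hx, ho⟩ := H1.exists_mem_orderOf_eq_prime hp.out h1.symm.dvd
  have h2 : zpowers x = P := H1.eq_of_le_of_card_eq (zpowers_le.2 hx) (by
    rw [Nat.card_zpowers, ho, h1])
  have h3 : zpowers x ≤ centralizer (zpowers x : Set G) :=
    fun _ ha _ hb => H1.comm_of_mem inferInstance hb ha
  rw [← h2] at h hN
  have h4 := centralizer_le_normalizer (zpowers x : Set G)
  refine ⟨x, ⟨⟨ho, ?_⟩, hN, h5⟩, h2.symm⟩
  rw [← centralizer_closure, ← zpowers_eq_closure]
  refine (H1.eq_of_le_of_card_eq h3 ?_).symm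
  rw [Nat.card_zpowers, ho]
  exact ((k _ (by simpa [ho] using card_dvd_of_le h3) (hN ▸ card_dvd_of_le h4)).resolve_right
    fun e => h (H1.eq_of_le_of_card_eq h4 (e.trans hN.symm)).ge).symm

namespace D2
variable [Fintype G] {x : G} (h : D2 p x)
include h

theorem inv {g y : G} (hg : g ∈ normalizer (zpowers x : Set G)) (h1 : g ∉ zpowers x)
    (hy : y ∈ zpowers x) : g * y * g⁻¹ = y⁻¹ := by
  refine H1.conj_eq_inv_of_fpf hg ((eq_bot_iff_forall _).2 fun z hz => by_contra fun e =>
    h1 ((h.toSC.cen_of hz.1 e).le (mem_centralizer_singleton_iff.2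
      (mem_centralizer_singleton_iff.1 hz.2).symm))) ?_ hy
  have e := H1.card_mul_relIndex (le_normalizer (H := zpowers x))
  rw [h.toSC.card, h.two, mul_comm] at e
  rw [h.toSC.cenP]
  exact (mul_self_mem_of_index_two (Nat.eq_of_mul_eq_mul_right hp.out.pos e)
    (⟨g, hg⟩ : normalizer (zpowers x : Set G)) :)

theorem ind (α : zpowers x → ℂ) {y : zpowers x} (hy : y ≠ 1) :
    indFun (zpowers x) α y = α y + α y⁻¹ := by
  classical
  have hy' : (y : G) ≠ 1 := fun e => hy (Subtype.ext e)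
  rw [indFun_apply', Finset.sum_congr rfl (g := fun g => (if g ∈ zpowers x then α y - α y⁻¹ else 0)
    + if g ∈ normalizer (zpowers x : Set G) then α y⁻¹ else 0) fun g _ => by
      by_cases h1 : g ∈ zpowers x
      · rw [H1.comm_of_mem inferInstance h1 y.2, mul_inv_cancel_right, extendByZero_coe]
        simp [h1, le_normalizer h1]
      by_cases h2 : g ∈ normalizer (zpowers x : Set G)
      · rw [h.inv h2 h1 y.2, ← coe_inv, extendByZero_coe]; simp [h1, h2]
      · rw [extendByZero_of_not_mem _ _ fun e => h2 (h.toSC.ti y.2 hy' e)]; simp [h1, h2]]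
  have c : ∀ K : Subgroup G, ((Finset.univ.filter (· ∈ K)).card : ℂ) = Nat.card K := fun K => by
    rw [Nat.card_eq_fintype_card, Fintype.card_subtype]
  simp only [Finset.sum_add_distrib, ← Finset.sum_filter, Finset.sum_const, nsmul_eq_mul, c, h.two,
    h.toSC.card]
  have : (p : ℂ) ≠ 0 := by exact_mod_cast hp.out.ne_zero
  field_simp
  push_cast; ring

omit hp h in
theorem beta_one (l : zpowers x →* ℂˣ) : dbeta x l 1 = 0 := by simp [dbeta, indFun_one]

theorem beta_P (l : zpowers x →* ℂˣ) :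
    (fun y : zpowers x => dbeta x l y) = hf 1 + hf 1 - hf l - hf l⁻¹ := by
  funext y
  by_cases hy : y = 1
  · simp [hy, beta_one]
  · rw [dbeta, h.ind _ hy]; simp; ring

theorem beta_reg (l : zpowers x →* ℂˣ) {g : G} (hg : ¬ p ∣ orderOf g) : dbeta x l g = 0 :=
  indFun_eq_zero_of_not_conj _ _ _ fun k hk => by
    have := h.toSC.eq_one hk (by rwa [H1.orderOf_conj])
    rw [show (⟨_, hk⟩ : zpowers x) = 1 from Subtype.ext this]; simp

omit hp h in
theorem gen_beta (l : zpowers x →* ℂˣ) : IsGeneralizedCharacter G (dbeta x l) :=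
  gen_indFun _ (gen_sub (char_gen (char_hom _)) (char_gen (char_hom _)))

omit hp h in
theorem inner_beta [Fintype (zpowers x)] (l : zpowers x →* ℂˣ) {ψ : G → ℂ}
    (hψ : IsClassFunction G ψ) {a : zpowers x → ℂ} (e : ∀ y : zpowers x, y ≠ 1 → ψ y = a y) :
    classInner (dbeta x l) ψ = classInner (hf 1) a - classInner (hf l) a := by
  rw [dbeta, inner_indFun_left _ _ hψ, inner_congr_off (by simp) e, inner_sub_left]

omit hp h in
theorem inner_beta_one {l : zpowers x →* ℂˣ} (hl : l ≠ 1) :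
    classInner (dbeta x l) (fun _ => 1) = 1 := by
  classical
  rw [inner_beta l (class_const 1) (a := hf 1) fun _ _ => by simp]
  simp [inner_hf, hl]

open Classical in
theorem inner_beta_beta {l m : zpowers x →* ℂˣ} (hl : l ≠ 1) (hm : m ≠ 1) :
    classInner (dbeta x l) (dbeta x m) = 2 + ((if l = m then 1 else 0) + if l = m⁻¹ then 1 else 0) := by
  rw [inner_beta l (gen_class (gen_beta m)) fun y _ => congrFun (h.beta_P m) y]
  simp [inner_sub_right, inner_add_right, inner_hf, hl, hm.symm, Ne.symm (mt (hom_inv_eq_one m).1 hm)]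
  ring

theorem odd : Odd (Nat.card (zpowers x)) := by
  rw [h.toSC.card]; exact hp.out.odd_of_ne_two (by have := h.five; omega)

theorem sq_ne {l : zpowers x →* ℂˣ} (hl : l ≠ 1) : l * l ≠ 1 := fun e =>
  hom_inv_ne_self h.odd hl (by simpa [e] using hom_inv_mul_cancel_left l l)

variable {χ : G → ℂ} (hχ : IsIrrCharacter G χ) (hv : ∀ y ∈ zpowers x, y ≠ 1 → χ y = -1)
include hχ hv

omit hp h in
theorem inner_beta_chi {l : zpowers x →* ℂˣ} (hl : l ≠ 1) : classInner (dbeta x l) χ = -1 := by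
  classical
  rw [inner_beta l (irr_class hχ) (a := -hf 1) fun y hy => by
    simpa using hv y y.2 fun e => hy (Subtype.ext e)]
  simp [inner_neg_right, inner_hf, hl]

omit hχ in
theorem chi_ne : χ ≠ fun _ => 1 := fun e => by
  have := hv x (mem_zpowers x) (H1.ne_one_of_orderOf_prime hp.out h.ord)
  rw [e] at this
  norm_num at this

omit hp h hv in
theorem gen_theta (l : zpowers x →* ℂˣ) : IsGeneralizedCharacter G (dtheta x χ l) :=
  gen_add (gen_sub (gen_beta l) gen_one) (irr_gen hχ)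

open Classical in
theorem inner_theta {l m : zpowers x →* ℂˣ} (hl : l ≠ 1) (hm : m ≠ 1) :
    classInner (dtheta x χ l) (dtheta x χ m) =
      (if l = m then 1 else 0) + if l = m⁻¹ then 1 else 0 := by
  have e := irr_inner_ne hχ isIrr_one (h.chi_ne hv)
  simp only [dtheta, inner_add_left, inner_add_right, inner_sub_left, inner_sub_right,
    h.inner_beta_beta hl hm, inner_beta_one hl, inner_beta_chi hχ hv hl,
    inner_gen_symm gen_one (gen_beta m), inner_gen_symm (irr_gen hχ) (gen_beta m),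
    inner_beta_one hm, inner_beta_chi hχ hv hm, inner_gen_symm gen_one (irr_gen hχ), e,
    irr_inner_self hχ, irr_inner_self isIrr_one]
  ring

omit hp h hχ hv in
theorem theta_one (l : zpowers x →* ℂˣ) : dtheta x χ l 1 = χ 1 - 1 := by
  simp [dtheta, beta_one]; ring

omit hχ hv in
theorem theta_reg (l : zpowers x →* ℂˣ) {g : G} (hg : ¬ p ∣ orderOf g) :
    dtheta x χ l g = χ g - 1 := by simp [dtheta, h.beta_reg l hg]; ring

omit hχ in
theorem theta_P (l : zpowers x →* ℂˣ) {y : zpowers x} (hy : y ≠ 1) :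
    dtheta x χ l y = -(l y + (l y : ℂ)⁻¹) := by
  have := congrFun (h.beta_P l) y
  simp [dtheta, this, hv y y.2 fun e => hy (Subtype.ext e)]; ring

theorem irr_theta {l : zpowers x →* ℂˣ} (hl : l ≠ 1) : IsIrrCharacter G (dtheta x χ l) :=
  isIrr_of_gen_norm_one (gen_theta hχ l) (by
    simp [h.inner_theta hχ hv hl hl, (hom_inv_ne_self h.odd hl).symm]) (by
      obtain ⟨n, h0, hn⟩ := irr_one_nat hχ
      simpa [theta_one, hn] using Nat.succ_le_of_lt h0)

theorem exists_hom : ∃ l : zpowers x →* ℂˣ, l ≠ 1 := by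
  have : Nontrivial (zpowers x →* ℂˣ) := Finite.one_lt_card_iff_nontrivial.1 (by
    rw [card_hom_of_comm (cyc_comm inferInstance), h.toSC.card]; exact hp.out.one_lt)
  exact exists_ne 1

theorem gal (σ : ℂ →+* ℂ) (g : G) : σ (χ g) = χ g := by
  obtain ⟨l, hl⟩ := h.exists_hom hχ hv
  have h1 := irr_ringHom σ hχ
  have h2 : ∀ y ∈ zpowers x, y ≠ 1 → σ (χ y) = -1 := fun y hy e => by simp [hv y hy e]
  have e := inner_beta_chi h1 h2 hl
  rw [show dbeta x l = dtheta x χ l + (fun _ => 1) - χ by rw [dtheta]; abel, inner_sub_left,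
    inner_add_left, irr_inner_ne isIrr_one h1 (h.chi_ne h2).symm] at e
  obtain ⟨n, hn⟩ := inner_char_nat (irr_char (h.irr_theta hχ hv hl)) (irr_char h1)
  refine (congrFun (irr_eq_of_inner_ne_zero hχ h1 fun e2 => ?_) g).symm
  rw [e2, hn, add_zero, sub_zero] at e
  have : (n : ℤ) = -1 := by exact_mod_cast e
  omega

theorem int (g : G) : ∃ n : ℤ, χ g = n :=
  int_of_fixed (char_integral (irr_char hχ) g) fun σ => h.gal hχ hv σ g

theorem pow {g : G} {k : ℕ} (hk : k.Coprime (orderOf g)) : χ (g ^ k) = χ g := by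
  obtain ⟨σ, hσ⟩ := exists_galois_pow (orderOf_pos g).ne' hk
  rw [← ringHom_char_apply σ hσ (irr_char hχ) dvd_rfl, h.gal hχ hv]

theorem quad (hd : χ 1 = p - 1) {g : G} (hg : ¬ p ∣ orderOf g) :
    (χ g - 1) ^ 2 - (χ (g * g) - 1) = (p - 3) * (χ g - 1) := by
  classical
  obtain ⟨l, hl⟩ := h.exists_hom hχ hv
  have hρ := alt_sq_char (irr_char (h.irr_theta hχ hv hl))
  set ρ := fun g => (dtheta x χ l g ^ 2 - dtheta x χ l (g * g)) / 2
  have h2 := h.sq_ne hl
  have h4 := hom_inv_ne_self h.odd h2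
  have i : ∀ m, m ≠ 1 → classInner (dbeta x m) ρ =
      1 - ((if m = l * l then 1 else 0) + if m = (l * l)⁻¹ then 1 else 0) := fun m hm => by
    rw [inner_beta m (char_class hρ) (a := hf 1 + hf (l * l) + hf (l * l)⁻¹) fun y hy => by
      have hy2 : y * y ≠ 1 := fun e => hy (orderOf_eq_one_iff.1 (Nat.eq_one_of_dvd_coprimes
        (Nat.coprime_two_right.2 h.odd) (orderOf_dvd_natCard y)
        (orderOf_dvd_of_pow_eq_one ((sq y).trans e))))
      simp only [ρ, ← coe_mul, h.theta_P hv l hy, h.theta_P hv l hy2]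
      simp; field_simp; ring]
    simp only [inner_add_right, inner_hf, hm, h2.symm, Ne.symm (mt (hom_inv_eq_one _).1 h2)]
    simp
  obtain ⟨d, hd'⟩ : ∃ d, p = d + 3 := ⟨p - 3, by have := h.five; omega⟩
  have dg : ∀ m, charDegree (dtheta x χ m) = d + 1 := fun m =>
    deg_of_eq (by rw [theta_one, hd, hd']; push_cast; ring)
  set T : Finset (zpowers x →* ℂˣ) := Finset.univ \ {1, l * l, (l * l)⁻¹}
  have mT : ∀ m, m ∈ T ↔ m ≠ 1 ∧ m ≠ l * l ∧ m ≠ (l * l)⁻¹ := fun m => by simp [T]
  have cT : T.card = d := by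
    rw [Finset.card_univ_diff, ← Nat.card_eq_fintype_card, card_hom_of_comm (cyc_comm inferInstance),
      h.toSC.card, Finset.card_eq_three.2 ⟨_, _, _, h2.symm, by simpa [eq_comm] using h2, h4.symm,
        rfl⟩]
    omega
  set S := T.image (dtheta x χ)
  have cS : d ≤ 2 * S.card := cT ▸ Finset.card_le_mul_card_image _ _ fun γ hγ => by
    obtain ⟨m, hm, rfl⟩ := Finset.mem_image.1 hγ
    refine (Finset.card_le_card (t := {m, m⁻¹}) fun k hk => ?_).trans Finset.card_le_two
    obtain ⟨h5, h6⟩ := Finset.mem_filter.1 hk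
    have := h.inner_theta hχ hv ((mT _).1 h5).1 ((mT _).1 hm).1
    rw [h6, irr_inner_self (h.irr_theta hχ hv ((mT _).1 hm).1)] at this
    by_contra hc
    simp only [Finset.mem_insert, Finset.mem_singleton, not_or] at hc
    simp [hc] at this
  have sub : S ⊆ irrs ⊤ := fun γ hγ => by
    obtain ⟨m, hm, rfl⟩ := Finset.mem_image.1 hγ
    exact mem_irrs.2 (irrOn_top.2 (h.irr_theta hχ hv ((mT _).1 hm).1))
  have le : ∀ γ ∈ irrs ⊤, (if γ ∈ S then d + 1 else 0) ≤ mu ⊤ ρ γ * charDegree γ := fun γ _ => by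
    split_ifs with hγ
    swap; · exact Nat.zero_le _
    obtain ⟨m, hm, rfl⟩ := Finset.mem_image.1 hγ
    obtain ⟨a, b, c⟩ := (mT _).1 hm
    refine dg m ▸ Nat.le_mul_of_pos_left _ (Nat.pos_of_ne_zero fun e => ?_)
    have c1 := irr_char (h.irr_theta hχ hv a)
    have c2 := irr_char (h.irr_theta hχ hv h2)
    have e1 : classInner (dtheta x χ m) ρ = classInner (dtheta x χ (l * l)) ρ + 1 := by
      simp only [dtheta, inner_add_left, inner_sub_left, i m a, i _ h2, b, c, h4.symm]
      simp; ring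
    rw [inner_char_symm c1 hρ, mu_top hρ c1, e, mu_top c2 hρ] at e1
    exact Nat.succ_ne_zero (mu ⊤ (dtheta x χ (l * l)) ρ) (by exact_mod_cast e1.symm)
  have dρ : 2 * charDegree ρ = (d + 1) * d := by
    have := deg_eq hρ
    simp only [ρ, mul_one, theta_one, hd] at this
    have : (2 * charDegree ρ : ℂ) = (d + 1) * d := by rw [← this, hd']; push_cast; ring
    exact_mod_cast this
  have s1 : ∑ γ ∈ irrs ⊤, (if γ ∈ S then d + 1 else 0) = S.card * (d + 1) := by
    rw [← Finset.sum_filter, Finset.filter_mem_eq_inter, Finset.inter_eq_right.2 sub]; simp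
  have s2 := Finset.sum_le_sum le
  have s3 := deg_sum (chOn_of_char hρ ⊤)
  have s4 : 2 * S.card = d := by nlinarith
  have s5 := (Finset.sum_eq_sum_iff_of_le le).1 (by nlinarith)
  have s6 := apply_sum (chOn_of_char hρ ⊤) (mem_top g)
  rw [Finset.sum_congr rfl (g := fun γ => if γ ∈ S then χ g - 1 else 0) fun γ hγ => by
    have := s5 γ hγ
    split_ifs at this ⊢ with h5
    · obtain ⟨m, hm, rfl⟩ := Finset.mem_image.1 h5
      rw [dg] at this
      rw [h.theta_reg m hg, show mu ⊤ ρ (dtheta x χ m) = 1 by nlinarith]; simp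
    · rw [(mul_eq_zero.1 this.symm).resolve_right (mem_irrs.1 hγ).deg_pos.ne']; simp,
    ← Finset.sum_filter, Finset.filter_mem_eq_inter, Finset.inter_eq_right.2 sub] at s6
  simp only [ρ, h.theta_reg l hg, h.theta_reg l (g := g * g) fun e => hg (e.trans (by
    rw [← sq]; exact orderOf_pow_dvd 2)), Finset.sum_const, nsmul_eq_mul] at s6
  rw [hd', ← s4]
  push_cast
  linear_combination 2 * s6

variable (hd : χ 1 = p - 1) (hf : ∀ g, χ g = χ 1 → g = 1)
include hd hf

theorem val_odd {g : G} (hg : ¬ p ∣ orderOf g) (h1 : g ≠ 1) (ho : Odd (orderOf g)) : χ g = 1 := by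
  have e := h.quad hχ hv hd hg
  rw [← sq, h.pow hχ hv (Nat.coprime_two_left.2 ho)] at e
  have : (χ g - 1) * (χ g - (p - 1)) = 0 := by linear_combination e
  exact sub_eq_zero.1 ((mul_eq_zero.1 this).resolve_right fun e =>
    h1 (hf g (by rw [hd, sub_eq_zero.1 e])))

omit hχ hv hd hf in
theorem reg_two {g : G} {k : ℕ} (hg : orderOf g = 2 ^ k) : ¬ p ∣ orderOf g := fun e => by
  have := (Nat.prime_dvd_prime_iff_eq hp.out Nat.prime_two).1 (hp.out.dvd_of_dvd_pow (hg ▸ e))
  have := h.five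
  omega

theorem val_two {g : G} (hg : orderOf g = 2) : χ g = 0 := by
  have e := h.quad hχ hv hd (h.reg_two (k := 1) hg)
  rw [← sq g, show g ^ 2 = 1 from hg ▸ pow_orderOf_eq_one g, hd] at e
  have : χ g * (χ g - (p - 1)) = 0 := by linear_combination e
  exact (mul_eq_zero.1 this).resolve_right fun e =>
    H1.ne_one_of_orderOf_prime Nat.prime_two hg (hf g (by rw [hd, sub_eq_zero.1 e]))

theorem val_four {g : G} (hg : ¬ p ∣ orderOf g) (h2 : orderOf (g * g) = 2) : p = 5 ∧ χ g = 2 := by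
  have e := h.quad hχ hv hd hg
  obtain ⟨n, hn⟩ := h.int hχ hv g
  rw [h.val_two hχ hv hd hf h2, hn] at e
  have e2 : (n - 1) * (p - 3 - (n - 1)) = 1 := by
    have : ((n - 1) * (p - 3 - (n - 1)) : ℂ) = 1 := by linear_combination -e
    exact_mod_cast this
  have := h.five
  rcases Int.eq_one_or_neg_one_of_mul_eq_one' e2 with ⟨a, b⟩ | ⟨a, b⟩
  · exact ⟨by omega, by rw [hn, show n = 2 by omega]; norm_num⟩
  · omega

theorem cen_two (h5 : p ≠ 5) {u g : G} (hu : orderOf u = 2) (hc : Commute g u) : g ^ 2 = 1 := by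
  by_contra h1
  have r := fun {g} => h.toSC.reg (g := g) (h.reg_two (k := 1) hu)
    (H1.ne_one_of_orderOf_prime Nat.prime_two hu)
  obtain ⟨q, hq, h2⟩ := Nat.exists_prime_and_dvd (mt orderOf_eq_one_iff.1 h1)
  obtain ⟨y, ⟨n, rfl⟩, hy⟩ := H1.exists_pow_orderOf_eq h2
  beta_reduce at hy
  by_cases h3 : q = 2
  · refine h5 (h.val_four hχ hv hd hf (r (hc.zpow_left n)) ?_).1
    rw [← h3, ← hy, ← sq, ← zpow_natCast, ← zpow_natCast, ← zpow_mul, ← zpow_mul, mul_comm]
  have c : Commute ((g ^ 2) ^ n) u := (hc.pow_left 2).zpow_left n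
  generalize (g ^ 2) ^ n = y at hy c
  have oq := hq.odd_of_ne_two h3
  have uu : u * u = 1 := by rw [← sq, ← hu, pow_orderOf_eq_one]
  have e1 : χ (y * u * (y * u)) = 1 := by
    rw [show y * u * (y * u) = y ^ 2 by rw [mul_assoc, ← mul_assoc u, ← c.eq, mul_assoc, uu]; simp [sq],
      h.pow hχ hv (hy ▸ Nat.coprime_two_left.2 oq)]
    exact h.val_odd hχ hv hd hf (r c) (H1.ne_one_of_orderOf_prime hq hy) (hy ▸ oq)
  have e := h.quad hχ hv hd (r (c.mul_left (Commute.refl u)))
  have e2 : (χ (y * u) - 1) * (χ (y * u) - (p - 2)) = 0 := by linear_combination e + e1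
  rcases mul_eq_zero.1 e2 with e3 | e3
  · obtain ⟨z, hz, e4⟩ := char_pow_congr hq 1 (irr_char hχ) (y * u)
    obtain ⟨k, hk⟩ := oq
    rw [pow_one, c.mul_pow, show y ^ q = 1 from hy ▸ pow_orderOf_eq_one y, one_mul, sub_eq_zero.1 e3, one_pow,
      show u ^ q = u by rw [hk, pow_succ, pow_mul, sq, uu]; simp, h.val_two hχ hv hd hf hu,
      zero_add] at e4
    have := dvd_of_eq_mul hq.ne_zero (n := 1) hz (by simpa using e4)
    exact hq.one_lt.ne' (Nat.dvd_one.1 (by exact_mod_cast this))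
  · have := re_sq_le (irr_char hχ) (y * u)
    rw [e1, sub_eq_zero.1 e3, hd] at this
    simp at this
    have h6 : p ≤ 6 := by exact_mod_cast (show (p : ℝ) ≤ 6 by linarith)
    have := h.five
    obtain rfl : p = 6 := by omega
    exact absurd hp.out (by norm_num)

theorem syl_dvd {r : ℕ} (hr : r.Prime) (R : Sylow r G) : (r = p → Nat.card R = p) ∧
    (r ≠ p → r ≠ 2 → Nat.card R ∣ p - 2) ∧ (r = 2 → p ≠ 5 → Nat.card R ∣ p - 1) ∧
    (r = 2 → p = 5 → Nat.card R ∣ 8) := by
  have := Fact.mk hr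
  have h5 := h.five
  refine ⟨?_, fun a b => card_dvd_of_const (irr_gen hχ) _ (c := 1) (by
      rw [hd, Nat.cast_sub (by omega)]; push_cast; ring) fun s hs h1 => ?_,
    fun a b => card_dvd_of_const (irr_gen hχ) _ (c := 0) (by
      rw [hd, Nat.cast_sub (by omega)]; simp) fun s hs h1 => ?_,
    fun a b => card_dvd_of_const (χ := (χ - fun _ => 1) * (χ - fun _ => 1))
      (gen_mul (gen_sub (irr_gen hχ) gen_one) (gen_sub (irr_gen hχ) gen_one)) _ (c := 1) (by
        simp [hd, b]; norm_num) fun s hs h1 => ?_⟩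
  · rintro rfl
    exact ((H1.isSylowIn_top R).card_eq_card h.toSC.syl).trans h.toSC.card
  · obtain ⟨k, hk⟩ := H1.exists_orderOf_eq_pow R.isPGroup' hs
    simpa using h.val_odd hχ hv hd hf (fun e => a ((Nat.prime_dvd_prime_iff_eq hp.out hr).1
      (hp.out.dvd_of_dvd_pow (hk ▸ e))).symm) h1 (hk ▸ (hr.odd_of_ne_two b).pow)
  · subst a
    obtain ⟨k, hk⟩ := H1.exists_orderOf_eq_pow R.isPGroup' hs
    obtain ⟨y, ⟨n, rfl⟩, hy⟩ := H1.exists_pow_orderOf_eq (x := s) (d := 2) (hk ▸ dvd_pow_self 2 (by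
      rintro rfl; exact h1 (orderOf_eq_one_iff.1 hk)))
    simpa using h.val_two hχ hv hd hf (orderOf_eq_prime
      (h.cen_two hχ hv hd hf b hy ((Commute.refl s).zpow_right n)) h1)
  · subst a
    have key : ∀ k (s : G), orderOf s = 2 ^ (k + 1) → χ s = 0 ∨ χ s = 2 := fun k => by
      induction k with
      | zero => exact fun s e => Or.inl (h.val_two hχ hv hd hf e)
      | succ k ih =>
        intro s e
        have e1 : orderOf (s * s) = 2 ^ (k + 1) := by
          rw [← sq, orderOf_pow' _ two_ne_zero, e, Nat.gcd_eq_right (dvd_pow_self 2 (by omega)),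
            pow_succ, Nat.mul_div_cancel _ two_pos]
        obtain ⟨n, hn⟩ := h.int hχ hv s
        have e2 := h.quad hχ hv hd (h.reg_two e)
        rcases ih _ e1 with e3 | e3
        · rw [e3, b] at e2
          exact Or.inr (sub_eq_zero.1 (pow_eq_zero_iff two_ne_zero |>.1 (by
            push_cast at e2; linear_combination e2)))
        · rw [e3, b, hn] at e2
          have : (n - 2) * (n - 2) = 2 := by
            have : ((n - 2) * (n - 2) : ℂ) = 2 := by push_cast at e2; linear_combination e2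
            exact_mod_cast this
          have : n - 2 ≤ 1 := by nlinarith
          have : -1 ≤ n - 2 := by nlinarith
          nlinarith
    obtain ⟨k, hk⟩ := H1.exists_orderOf_eq_pow R.isPGroup' hs
    obtain ⟨k, rfl⟩ := Nat.exists_eq_succ_of_ne_zero
      (show k ≠ 0 by rintro rfl; exact h1 (orderOf_eq_one_iff.1 hk))
    rcases key k s hk with e | e <;> simp [e]; norm_num

theorem card_G : Nat.card G = p * (p - 1) * (p - 2) := by
  have h5 := h.five
  obtain ⟨l, hl⟩ := h.exists_hom hχ hv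
  have d1 : p - 1 ∣ Nat.card G := degree_dvd_card hχ (by rw [hd, Nat.cast_sub (by omega)]; simp)
  have d2 : p - 2 ∣ Nat.card G := degree_dvd_card (h.irr_theta hχ hv hl) (by
    rw [theta_one, hd, Nat.cast_sub (by omega)]; push_cast; ring)
  have d0 : p ∣ Nat.card G := h.ord ▸ orderOf_dvd_natCard x
  have d : p * (p - 1) * (p - 2) ∣ Nat.card G := by
    obtain ⟨k, rfl⟩ : ∃ k, p = k + 2 := ⟨p - 2, by omega⟩
    refine Nat.Coprime.mul_dvd_of_dvd_of_dvd (Nat.Coprime.mul_left ?_ (by simp))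
      (Nat.Coprime.mul_dvd_of_dvd_of_dvd (by simp [show k + 2 = k + 1 + 1 from rfl]) d0 d1) d2
    exact (Nat.Prime.coprime_iff_not_dvd hp.out).2 (Nat.not_dvd_of_pos_of_lt (by omega) (by omega))
  by_cases h6 : p = 5
  · have e : Nat.card G ∣ 120 := card_dvd_of_sylow (by norm_num) fun r hr R => by
      obtain ⟨a, b, -, c⟩ := h.syl_dvd hχ hv hd hf hr R
      by_cases h1 : r = p
      · rw [a h1, h6]; norm_num
      by_cases h2 : r = 2
      · exact (c h2 h6).trans (by norm_num)
      · exact (b h1 h2).trans (by rw [h6]; norm_num)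
    have e2 := card_sylow_modEq_one p G
    have e3 := (normalizer (zpowers x : Set G)).index_mul_card
    rw [h.toSC.syl.card_sylow] at e2
    rw [h.two] at e3
    subst h6
    obtain ⟨k, hk⟩ := d
    rw [hk] at e ⊢
    have : k ∣ 2 := Nat.dvd_of_mul_dvd_mul_left (by norm_num : 0 < 60) e
    have := Nat.le_of_dvd two_pos this
    unfold Nat.ModEq at e2
    have : k ≠ 0 := by rintro rfl; simp at e
    omega
  refine Nat.dvd_antisymm (card_dvd_of_sylow (by
    have : 0 < p - 2 := by omega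
    have : 0 < p - 1 := by omega
    positivity) fun r hr R => ?_) d
  obtain ⟨a, b, c, -⟩ := h.syl_dvd hχ hv hd hf hr R
  by_cases h1 : r = p
  · rw [a h1, mul_assoc]; exact dvd_mul_right _ _
  by_cases h2 : r = 2
  · exact ((c h2 h6).mul_left _).mul_right _
  · exact (b h1 h2).mul_left _

theorem card_T (h5 : p ≠ 5) (T : Sylow 2 G) : Nat.card T = p - 1 := by
  have h6 := h.five
  refine Nat.dvd_antisymm ((h.syl_dvd hχ hv hd hf Nat.prime_two T).2.2.1 rfl h5) ?_
  have d1 : p - 1 ∣ Nat.card G := degree_dvd_card hχ (by rw [hd, Nat.cast_sub (by omega)]; simp)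
  have e : Nat.card G ∣ Nat.card T * (p * (p - 2)) := card_dvd_of_sylow (by
    have : 0 < p - 2 := by omega
    have : 0 < Nat.card T := Nat.card_pos
    positivity) fun r hr R => by
      obtain ⟨a, b, -⟩ := h.syl_dvd hχ hv hd hf hr R
      by_cases h1 : r = p
      · rw [a h1]; exact (dvd_mul_right _ _).mul_left _
      by_cases h2 : r = 2
      · subst h2
        exact ((H1.isSylowIn_top R).card_eq_card (H1.isSylowIn_top T)).dvd.mul_right _
      · exact ((b h1 h2).mul_left _).mul_left _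
  refine Nat.Coprime.dvd_of_dvd_mul_right ?_ (d1.trans e)
  obtain ⟨k, rfl⟩ : ∃ k, p = k + 1 + 1 := ⟨p - 2, by omega⟩
  exact Nat.Coprime.mul_right (by simp) (by simp)

end D2

end H3
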