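import Cfsg.Agent.H3.Ext
import Cfsg.Agent.H1.MC2
import Cfsg.Agent.H1.Tr2

/-! H3.Qd: the centralizer of the derived subgroup of a maximal-class Sylow 2-subgroup. -/

set_option autoImplicit false
open Cfsg Subgroup
open scoped commutatorElement

namespace H3

universe u
variable {G : Type u} [Group G] [Finite G]

theorem mc_inf_cent {S : Subgroup G} {n : ℕ} {a b : G} (h : H1.MC S n a b) (hn : 2 ≤ n) :
    S ⊓ centralizer (zpowers (a ^ 2) : Set G) = zpowers a := by
  refine le_antisymm (fun t ht => by_contra fun hta => ?_) (le_inf h.le ?_)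
  · have e := h.inv_sq ht.1 hta (mem_zpowers _)
    rw [(H1.mem_centralizer_iff_conj.1 ht.2) _ (mem_zpowers _)] at e
    have e2 : (a ^ 2) ^ 2 = 1 := by rw [sq (a ^ 2)]; nth_rw 2 [e]; exact mul_inv_cancel _
    have := Nat.le_of_dvd two_pos (h.osq ▸ orderOf_dvd_of_pow_eq_one e2)
    have := Nat.pow_le_pow_right two_pos hn
    omega
  · rintro _ ⟨i, rfl⟩ _ ⟨j, rfl⟩
    exact (((Commute.refl a).pow_left 2).zpow_zpow j i).eq

theorem qd_setup (S : Sylow 2 G) (n : ℕ) (e : (S : Subgroup G) ≃* QuaternionGroup (2 ^ (n + 2))) :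
    ∃ a : G, ⁅(S : Subgroup G), (S : Subgroup G)⁆ = zpowers (a ^ 2) ∧
      (S : Subgroup G) ⊓ centralizer (zpowers (a ^ 2) : Set G) = zpowers a ∧
      (zpowers a).relIndex S = 2 ∧ (S : Subgroup G) ≤ normalizer (zpowers (a ^ 2) : Set G) ∧
      H2.IsSylowIn 2 (zpowers a) (centralizer (zpowers (a ^ 2) : Set G)) := by
  obtain ⟨m, a, b, h, e1, -⟩ := H1.mc_of_quaternion S.2 (by
    have := Nat.pow_le_pow_right two_pos (by omega : 1 ≤ n + 2); omega) e
  obtain rfl : n + 2 = m := Nat.pow_right_injective le_rfl e1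
  have h1 := mc_inf_cent h (by omega)
  have h2 := h.norm' (H1.zpowers_pow_le a 2)
  refine ⟨a, h.commutator, h1, h.idx, h2, ?_⟩
  have := ((H1.isSylowIn_top S).of_le h2 le_top).inf_normal (centralizer_le_normalizer _)
    (H1.le_normalizer_centralizer h2)
  rw [h1] at this
  exact ⟨this.1, this.2, this.3⟩

theorem le_of_cyc {Z H K : Subgroup G} (hZ : IsCyclic Z) (hH : H ≤ Z) (hK : K ≤ Z)
    (h : Nat.card H ∣ Nat.card K) : H ≤ K := fun x hx =>
  cyclic_le_of_card_dvd (H := H.subgroupOf Z) (K := K.subgroupOf Z)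
    (by rwa [H1.card_subgroupOf hH, H1.card_subgroupOf hK]) (show (⟨x, hH hx⟩ : Z) ∈ _ from hx)

end H3
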