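import Cfsg.Agent.H3.Brauer

/-!
H3.Split: characters of representations over a subfield `F` of `ℂ` (`FChar F χ`),
`fchar_of_sub`, `fchar_indFun`, Brauer's splitting field theorem `fchar_of_roots`.
-/

set_option autoImplicit false
open Cfsg
open scoped ComplexConjugate

namespace H3

universe u
variable {G : Type u} [Group G] (F : Type) [Field F] [Algebra F ℂ]

/-- characters of representations over `F` -/
def FChar (χ : G → ℂ) : Prop :=
  ∃ (n : ℕ) (ρ : Representation F G (Fin n → F)), χ = fun g => algebraMap F ℂ (ρ.character g)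

variable {F}

theorem fchar_character {V : Type*} [AddCommGroup V] [Module F V] [FiniteDimensional F V]
    (ρ : Representation F G V) : FChar F fun g => algebraMap F ℂ (ρ.character g) := by
  let e := (Module.finBasis F V).equivFun
  refine ⟨_, e.conjAlgEquiv F |>.toMulEquiv.toMonoidHom.comp ρ, ?_⟩
  ext g
  exact congrArg _ (LinearMap.trace_conj' (ρ g) e).symm

theorem fchar_exists_rep {χ : G → ℂ} (h : FChar F χ) : ∃ (n : ℕ)
    (σ : Representation ℂ G (Fin n → ℂ)), σ.character = χ ∧
      ∀ g i j, LinearMap.toMatrix' (σ g) i j ∈ Set.range (algebraMap F ℂ) := by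
  obtain ⟨n, ρ, rfl⟩ := h
  let M : G →* Matrix (Fin n) (Fin n) ℂ := (algebraMap F ℂ).mapMatrix.toMonoidHom.comp
    ((LinearMap.toMatrixAlgEquiv' (R := F) (n := Fin n)).toMulEquiv.toMonoidHom.comp ρ)
  refine ⟨n, (Matrix.toLinAlgEquiv' (R := ℂ) (n := Fin n)).toMulEquiv.toMonoidHom.comp M, ?_,
    fun g i j => ⟨LinearMap.toMatrix' (ρ g) i j, ?_⟩⟩
  · ext g
    change LinearMap.trace ℂ _ (Matrix.toLin' (M g)) = _
    rw [Matrix.trace_toLin'_eq, Representation.character, ← Matrix.toLin'_toMatrix' (ρ g),
      Matrix.trace_toLin'_eq, AddMonoidHom.map_trace]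
    rfl
  · change _ = LinearMap.toMatrix' (Matrix.toLin' (M g)) i j
    rw [LinearMap.toMatrix'_toLin']; rfl

theorem fchar_char {χ : G → ℂ} (h : FChar F χ) : IsCharacter G χ := by
  obtain ⟨n, σ, h, -⟩ := fchar_exists_rep h
  exact ⟨n, σ, h⟩

theorem fchar_zero : FChar F (0 : G → ℂ) :=
  ⟨0, 1, by ext g; simp [Representation.character]⟩

theorem character_prod {V W : Type*} [AddCommGroup V] [Module F V] [FiniteDimensional F V]
    [AddCommGroup W] [Module F W] [FiniteDimensional F W] (ρ : Representation F G V)
    (σ : Representation F G W) : (ρ.prod σ).character = ρ.character + σ.character := by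
  ext g
  simp only [Representation.character, Pi.add_apply]
  rw [← LinearMap.trace_prodMap']
  rfl

theorem fchar_add {a b : G → ℂ} (ha : FChar F a) (hb : FChar F b) : FChar F (a + b) := by
  obtain ⟨n, ρ, rfl⟩ := ha
  obtain ⟨m, σ, rfl⟩ := hb
  convert fchar_character (ρ.prod σ) using 1
  ext g; simp [character_prod]

theorem character_eq_add_of_isCompl' {V : Type*} [AddCommGroup V] [Module F V]
    [FiniteDimensional F V] {ρ : Representation F G V} (a b : Subrepresentation ρ)
    (h : IsCompl a b) :
    ρ.character = a.toRepresentation.character + b.toRepresentation.character := by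
  have h' : IsCompl a.toSubmodule b.toSubmodule := by
    constructor
    · rw [disjoint_iff, ← Subrepresentation.toSubmodule_inf, h.inf_eq_bot]; rfl
    · rw [codisjoint_iff, ← Subrepresentation.toSubmodule_sup, h.sup_eq_top]; rfl
  have e : (a.toRepresentation.prod b.toRepresentation).Equiv ρ :=
    Representation.Equiv.mk (Submodule.prodEquivOfIsCompl _ _ h') (fun g => by
      ext v <;> simp [Subrepresentation.toRepresentation, Representation.prod])
  rw [← Representation.char_iso e, character_prod]

theorem fchar_of_sub [Finite G] (n : ℕ) : ∀ {a b : G → ℂ}, FChar F a → FChar F b → b 1 = n →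
    IsCharacter G (a - b) → FChar F (a - b) := by
  have := Fintype.ofFinite G
  have : CharZero F := (algebraMap F ℂ).charZero
  have h0 : (Nat.card G : F) ≠ 0 := by exact_mod_cast Nat.card_pos.ne'
  have : NeZero (Nat.card G : F) := ⟨h0⟩
  have := invertibleOfNonzero h0
  induction n using Nat.strong_induction_on with
  | _ n ih =>
    intro a b ha hb hn hab
    by_cases hb0 : b = 0
    · simpa [hb0] using ha
    have h1 : classInner b a ≠ 0 := by
      rw [Ne, inner_eq_zero_symm]
      exact constituent_of_sub hab (fchar_char hb) (fchar_char hb)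
        fun h => hb0 (inner_self_eq_zero h)
    rw [inner_char_eq (fchar_char ha)] at h1
    obtain ⟨m, ρ, rfl⟩ := ha
    obtain ⟨m', σ, rfl⟩ := hb
    have h2 := congrArg (algebraMap F ℂ)
      (Representation.card_inv_mul_sum_char_mul_char_eq_finrank ρ σ)
    simp only [map_mul, map_inv₀, map_natCast, map_sum] at h2
    obtain ⟨f, hf⟩ := (Module.finrank_pos_iff_exists_ne_zero (R := F)).mp
      (Nat.pos_of_ne_zero (by exact_mod_cast h2 ▸ h1))
    obtain ⟨c, hc⟩ := exists_isCompl f.ker
    let f' : c.toRepresentation.IntertwiningMap σ :=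
      ⟨f.toLinearMap ∘ₗ c.toSubmodule.subtype, fun g => by
        apply LinearMap.ext; intro v; exact f.isIntertwining _ _ g v⟩
    have hi : Function.Injective f'.toLinearMap := by
      rw [← LinearMap.ker_eq_bot, eq_bot_iff]
      intro v hv
      have : v.1 ∈ (f.ker ⊓ c).toSubmodule := ⟨hv, v.2⟩
      rw [hc.inf_eq_bot] at this
      exact Subtype.ext this
    let e : c.toRepresentation.Equiv f'.range.toRepresentation :=
      Representation.Equiv.mk (LinearEquiv.ofInjective f'.toLinearMap hi) fun g => by
        apply LinearMap.ext; intro v; exact Subtype.ext (f'.isIntertwining _ _ g v)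
    obtain ⟨d, hd⟩ := exists_isCompl f'.range
    have e1 := character_eq_add_of_isCompl' _ _ hc
    have e2 := character_eq_add_of_isCompl' _ _ hd
    rw [← Representation.char_iso e] at e2
    have e3 : ((fun g => algebraMap F ℂ (ρ.character g)) - fun g => algebraMap F ℂ (σ.character g))
        = (fun g => algebraMap F ℂ (f.ker.toRepresentation.character g)) -
          fun g => algebraMap F ℂ (d.toRepresentation.character g) := by
      ext g; simp [e1, e2, add_comm]
    rw [e3] at hab ⊢
    refine ih (Module.finrank F d.toSubmodule) ?_ (fchar_character _) (fchar_character _)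
      (by simp [Representation.char_one]) hab
    have h3 : Module.finrank F c.toSubmodule ≠ 0 := fun h => hf (by
      have : c = ⊥ := Subrepresentation.toSubmodule_injective (Submodule.finrank_eq_zero.mp h)
      have h4 : f.ker = ⊤ := by simpa [this] using hc.sup_eq_top
      ext v
      have : Pi.single v 1 ∈ f.ker.toSubmodule := h4 ▸ trivial
      simpa using congrFun (LinearMap.mem_ker.mp this) _)
    have := congrArg (algebraMap F ℂ) (congrFun e2 1)
    simp only [hn, Pi.add_apply, map_add] at this
    simp only [Representation.char_one, map_natCast] at this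
    have h4 : n = Module.finrank F c.toSubmodule + Module.finrank F d.toSubmodule := by
      exact_mod_cast this
    omega

theorem fchar_matrix_proj {ι : Type*} [Fintype ι] [DecidableEq ι] (M : G →* Matrix ι ι F)
    (P : Matrix ι ι F) (hP : P * P = P) (hc : ∀ g, M g * P = P * M g) :
    FChar F (fun g => algebraMap F ℂ (M g * P).trace) := by
  let ρ : Representation F G (ι → F) :=
    (Matrix.toLinAlgEquiv' (R := F) (n := ι)).toMulEquiv.toMonoidHom.comp M
  let Q := Matrix.toLinAlgEquiv' P
  have hQ : Q * Q = Q := by rw [← map_mul, hP]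
  have hc' : ∀ g, ρ g * Q = Q * ρ g := fun g => by
    show Matrix.toLinAlgEquiv' (M g) * _ = _ * Matrix.toLinAlgEquiv' (M g)
    rw [← map_mul, ← map_mul, hc]
  let S : Subrepresentation ρ := ⟨LinearMap.range Q, by
    rintro g _ ⟨v, rfl⟩
    exact ⟨ρ g v, (LinearMap.congr_fun (hc' g) v).symm⟩⟩
  convert fchar_character S.toRepresentation using 3 with g
  rw [← Matrix.trace_toLin'_eq, show Matrix.toLin' (M g * P) = ρ g * Q from map_mul
    (Matrix.toLinAlgEquiv' (R := F) (n := ι)) _ _,
    ← LinearMap.trace_restrict_eq_of_forall_mem (LinearMap.range Q) (ρ g * Q)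
    (fun v => ⟨ρ g v, (LinearMap.congr_fun (hc' g) v).symm⟩), Representation.character]
  congr 1
  ext1 ⟨_, v, rfl⟩
  exact Subtype.ext (congrArg (ρ g) (LinearMap.congr_fun hQ v))

theorem fchar_indFun [Fintype G] (E : Subgroup G) (lam : E →* ℂˣ)
    (h : ∀ e, (lam e : ℂ) ∈ Set.range (algebraMap F ℂ)) :
    FChar F (indFun E fun e => (lam e : ℂ)) := by
  classical
  have := Fintype.ofFinite E
  have : ∀ g, ∃ a : F, algebraMap F ℂ a = extendByZero E (fun e => (lam e : ℂ)) g := fun g => by
    by_cases hg : g ∈ E
    · rw [extendByZero_of_mem E _ hg]; exact h _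
    · rw [extendByZero_of_not_mem E _ hg]; exact ⟨0, map_zero _⟩
  choose l hl using this
  let M : G →* Matrix G G F :=
    { toFun := fun g => Matrix.of fun x y => if x = g * y then 1 else 0
      map_one' := by ext; simp [Matrix.one_apply]
      map_mul' := fun a b => by ext; simp [Matrix.mul_apply, mul_assoc] }
  let P : Matrix G G F := Matrix.of fun x y => (Nat.card E : F)⁻¹ * l (x⁻¹ * y)
  have h1 : ∀ g x y, (M g * P) x y = P (g⁻¹ * x) y := fun g x y => by
    simp [M, Matrix.mul_apply, ← inv_mul_eq_iff_eq_mul]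
  convert fchar_matrix_proj M P ?_ fun g => ?_ using 1
  · ext g
    simp only [Matrix.trace, Matrix.diag, h1]
    simp [P, hl, indFun, Finset.mul_sum]
  · ext x z
    apply (algebraMap F ℂ).injective
    simp only [P, Matrix.mul_apply, Matrix.of_apply, map_sum, map_mul, map_inv₀, map_natCast, hl]
    rw [← Equiv.sum_comp (Equiv.mulLeft x)]
    simp only [Equiv.coe_mulLeft, inv_mul_cancel_left, mul_inv_rev, mul_assoc, ← Finset.mul_sum]
    congr 1
    rw [sum_extendByZero, Finset.sum_congr rfl (g := fun _ => (Nat.card E : ℂ)⁻¹ *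
      extendByZero E (fun e => (lam e : ℂ)) (x⁻¹ * z)) fun e _ => ?_]
    · rw [Finset.sum_const, Finset.card_univ, ← Nat.card_eq_fintype_card, nsmul_eq_mul,
        mul_inv_cancel_left₀ (card_ne_zero' E)]
    rw [mul_left_comm]; congr 1
    by_cases hz : x⁻¹ * z ∈ E
    · rw [extendByZero_of_mem E _ hz, extendByZero_of_mem E _ (E.mul_mem (E.inv_mem e.2) hz),
        ← Units.val_mul, ← map_mul]
      congr 2; ext; simp
    · rw [extendByZero_of_not_mem E _ hz, extendByZero_of_not_mem, mul_zero]
      exact fun h => hz (by simpa using E.mul_mem e.2 h)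
  · ext x z
    rw [h1]
    simp [M, P, Matrix.mul_apply, mul_assoc]

/-- Brauer's splitting field theorem -/
theorem fchar_of_roots [Finite G]
    (h : ∀ z : ℂ, z ^ Monoid.exponent G = 1 → z ∈ Set.range (algebraMap F ℂ)) {χ : G → ℂ}
    (hχ : IsCharacter G χ) : FChar F χ := by
  have := Fintype.ofFinite G
  let A : AddSubgroup (G → ℂ) :=
    { carrier := {f | ∃ a b, FChar F a ∧ FChar F b ∧ f = a - b}
      zero_mem' := ⟨0, 0, fchar_zero, fchar_zero, by simp⟩
      add_mem' := by
        rintro _ _ ⟨a, b, ha, hb, rfl⟩ ⟨c, d, hc, hd, rfl⟩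
        exact ⟨_, _, fchar_add ha hc, fchar_add hb hd, by abel⟩
      neg_mem' := by
        rintro _ ⟨a, b, ha, hb, rfl⟩
        exact ⟨_, _, hb, ha, by abel⟩ }
  obtain ⟨a, b, ha, hb, rfl⟩ := indSpan_le A (fun E lam _ => ⟨_, 0, fchar_indFun E lam
    fun e => h _ (by
      rw [← Units.val_pow_eq_pow_val, ← map_pow, show e ^ Monoid.exponent G = 1 from
        Subtype.ext (Monoid.pow_exponent_eq_one (e : G)), map_one, Units.val_one]),
    fchar_zero, by simp⟩) (brauer_induction (char_gen hχ))
  obtain ⟨n, hn⟩ := char_one_nat (fchar_char hb)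
  exact fchar_of_sub n ha hb hn hχ

end H3
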