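import Cfsg.Agent.H3.Tf
import Cfsg.Agent.H4.Cyc2

/-! H3.Tf2: nilpotency index of `x - 1` modulo `p` and fixed points of `N(⟨x⟩)`. -/

set_option autoImplicit false
open Cfsg Subgroup H4
open scoped ComplexConjugate Pointwise

namespace H3

variable {G Γ Δ ι : Type*} [Group G] [Group Γ] [Group Δ] {M : Ideal AlgInt} {p : ℕ}

theorem nil_mul {F V : Type*} [Field F] [AddCommGroup V] [Module F V] {A B : Module.End F V} (h : Commute A B)
    {a b : ℕ} {w : V} (hA : ((A - 1) ^ a) w = 0) (hB : ((B - 1) ^ b) w = 0) : ((A * B - 1) ^ (a + b - 1)) w = 0 := by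
  have h1 : Commute A (B - 1) := h.sub_right (Commute.one_right _)
  have h2 : Commute (B - 1) (A - 1) := h1.symm.sub_right (Commute.one_right _)
  have h3 : Commute (A * (B - 1)) (A - 1) := ((Commute.refl A).sub_right (Commute.one_right _)).mul_left h2
  rw [show A * B - 1 = A * (B - 1) + (A - 1) by noncomm_ring, h3.add_pow, LinearMap.sum_apply]
  refine Finset.sum_eq_zero fun i hi => ?_
  rw [← (Nat.cast_commute _ _).eq, Module.End.mul_apply]
  refine (congrArg _ ?_).trans (map_zero _)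
  by_cases hb : b ≤ i
  · obtain ⟨j, rfl⟩ := Nat.exists_eq_add_of_le' hb
    rw [h1.mul_pow, mul_assoc, (h2.pow_pow _ _).eq, pow_add (B - 1), ← mul_assoc, ← mul_assoc, Module.End.mul_apply,
      hB, map_zero]
  · obtain ⟨j, e⟩ := Nat.exists_eq_add_of_le' (show a ≤ a + b - 1 - i by omega)
    rw [e, pow_add, ← mul_assoc, Module.End.mul_apply, hA, map_zero]

/-- right translation of functions -/
def Rt (F : Type*) [Field F] : Γ →* Module.End F (Γ → F) where
  toFun y := LinearMap.funLeft F F (· * y)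
  map_one' := by ext; simp
  map_mul' y z := by ext; simp [mul_assoc]

@[simp] theorem Rt_apply (F : Type*) [Field F] (y : Γ) (f : Γ → F) (a : Γ) : Rt F y f a = f (a * y) := rfl

/-- span of the right translates -/
def TS (Φ : Γ → ℂ) : Submodule ℂ (Γ → ℂ) := Submodule.span ℂ (Set.range fun b a => Φ (a * b))

/-- `(y - 1) ^ l` kills the reductions of the integral functions in the span of the translates -/
def NilC (M : Ideal AlgInt) (Φ : Γ → ℂ) (y : Γ) (l : ℕ) : Prop :=
  ∀ f ∈ TS Φ, (∀ a, f a ∈ O M) → ((Rt (k M) y - 1) ^ l) (fun a => red M (f a)) = 0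

/-- exponential-sum expansion along powers of `y` -/
def ExS (f : Γ → ℂ) (y : Γ) (S : Finset ι) (ζ : ι → ℂ) : Prop :=
  ∀ a, ∃ c : ι → ℂ, ∀ n : ℕ, f (a * y ^ n) = ∑ i ∈ S, c i * ζ i ^ n

theorem NilC.mul {Φ : Γ → ℂ} {y z : Γ} {a b : ℕ} (h : NilC M Φ y a) (h' : NilC M Φ z b) (hc : Commute y z) :
    NilC M Φ (y * z) (a + b - 1) := fun f hf hO => by
  rw [map_mul]; exact nil_mul (hc.map _) (h f hf hO) (h' f hf hO)

theorem ExS.nil [DecidableEq ι] {y : Γ} {S : Finset ι} {ζ : ι → ℂ} (hζ : ∀ i, ζ i ∈ O M ∧ red M (ζ i) = 1) :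
    ∀ {f : Γ → ℂ}, ExS f y S ζ → (∀ a, f a ∈ O M) → ((Rt (k M) y - 1) ^ S.card) (fun a => red M (f a)) = 0 := by
  induction S using Finset.induction_on with
  | empty =>
    intro f h _
    funext a
    obtain ⟨c, hc⟩ := h a
    simpa using congrArg (red M) (hc 0)
  | insert i S hi ih =>
    intro f h hO
    rw [Finset.card_insert_of_notMem hi, pow_succ, Module.End.mul_apply]
    have := ih (f := fun a => f (a * y) - ζ i * f a) (fun a => by
      obtain ⟨c, hc⟩ := h a
      refine ⟨fun j => c j * (ζ j - ζ i), fun n => ?_⟩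
      beta_reduce
      rw [mul_assoc, ← pow_succ, hc, hc, Finset.sum_insert hi, Finset.sum_insert hi, mul_add, Finset.mul_sum,
        add_sub_add_comm, ← Finset.sum_sub_distrib, show c i * ζ i ^ (n + 1) - ζ i * (c i * ζ i ^ n) = 0 by ring,
        zero_add]
      exact Finset.sum_congr rfl fun j _ => by ring) fun a => sub_mem (hO _) (mul_mem (hζ i).1 (hO _))
    convert this using 2
    funext a
    rw [red_sub (hO _) (mul_mem (hζ i).1 (hO _)), red_mul (hζ i).1 (hO _), (hζ i).2, one_mul]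
    rfl

theorem nilC_of_ex [DecidableEq ι] {Φ : Γ → ℂ} {y : Γ} {S : Finset ι} {ζ : ι → ℂ}
    (hζ : ∀ i, ζ i ∈ O M ∧ red M (ζ i) = 1) (h : ∀ b, ExS (fun a => Φ (a * b)) y S ζ) : NilC M Φ y S.card := by
  intro f hf hO
  refine ExS.nil hζ ?_ hO
  clear hO
  induction hf using Submodule.span_induction with
  | mem f hf => obtain ⟨b, rfl⟩ := hf; exact h b
  | zero => exact fun a => ⟨0, by simp⟩
  | add f g _ _ h1 h2 =>
    intro a
    obtain ⟨c, hc⟩ := h1 a
    obtain ⟨d, hd⟩ := h2 a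
    exact ⟨c + d, fun n => by simp [hc, hd, add_mul, Finset.sum_add_distrib]⟩
  | smul r f _ h1 =>
    intro a
    obtain ⟨c, hc⟩ := h1 a
    exact ⟨r • c, fun n => by simp [hc, Finset.mul_sum, mul_assoc]⟩

theorem ex_left {Φ : Γ → ℂ} {y : Γ} {S : Finset ι} {ζ : ι → ℂ} (h : ∀ b, ExS (fun a => Φ (a * b)) y S ζ)
    (Ψ : Δ → ℂ) (b : Γ × Δ) : ExS (fun a => (fun z : Γ × Δ => Φ z.1 * Ψ z.2) (a * b)) (y, 1) S ζ := fun a => by
  obtain ⟨c, hc⟩ := h b.1 a.1
  refine ⟨fun i => c i * Ψ (a.2 * b.2), fun n => ?_⟩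
  simp only [Prod.pow_mk, Prod.fst_mul, Prod.snd_mul, one_pow, mul_one] at hc ⊢
  rw [hc, Finset.sum_mul]
  exact Finset.sum_congr rfl fun j _ => by ring

theorem ex_right {Φ : Γ → ℂ} {y : Γ} {S : Finset ι} {ζ : ι → ℂ} (h : ∀ b, ExS (fun a => Φ (a * b)) y S ζ)
    (Ψ : Δ → ℂ) (b : Δ × Γ) : ExS (fun a => (fun z : Δ × Γ => Ψ z.1 * Φ z.2) (a * b)) (1, y) S ζ := fun a => by
  obtain ⟨c, hc⟩ := h b.2 a.2
  refine ⟨fun i => c i * Ψ (a.1 * b.1), fun n => ?_⟩
  simp only [Prod.pow_mk, Prod.fst_mul, Prod.snd_mul, one_pow, mul_one] at hc ⊢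
  rw [hc, Finset.mul_sum]
  exact Finset.sum_congr rfl fun j _ => by ring

theorem ex_conj {Φ : Γ → ℂ} {y : Γ} {S : Finset ι} {ζ : ι → ℂ} (h : ∀ b, ExS (fun a => Φ (a * b)) y S ζ)
    (b : Γ) : ExS (fun a => (fun z => conj (Φ z)) (a * b)) y S (fun i => conj (ζ i)) := fun a => by
  obtain ⟨c, hc⟩ := h b a
  exact ⟨fun i => conj (c i), fun n => by simp only at hc ⊢; simp [hc]⟩

theorem inner_shift_eq_zero {P : Type*} [Group P] [Fintype P] (j : P →* G) {χ : G → ℂ} (hχ : IsCharacter G χ)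
    {l : P →* ℂˣ} (h : classInner (fun u : P => χ (j u)) (hf l) = 0) (a b : G) :
    classInner (fun u : P => χ (a * j u * b)) (hf l) = 0 := by
  obtain ⟨n, ρ, rfl⟩ := hχ
  let σ := twistRep (ρ.comp j) l⁻¹
  have hσ : ∀ u, σ u = conj (l u : ℂ) • ρ (j u) := fun u => by
    rw [← hom_inv_eq_conj, map_inv]; rfl
  have h1 : σ.invariants = ⊥ := by
    have := inner_one_eq_finrank σ
    rw [← Submodule.finrank_eq_zero, ← Nat.cast_eq_zero (R := ℂ), ← this, ← h]
    simp [classInner, Representation.character, hσ, mul_comm]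
  have h2 : ∑ u, σ u = 0 := LinearMap.ext fun w => by
    have : (∑ u, σ u) w ∈ σ.invariants := fun g => by
      rw [← Module.End.mul_apply, Finset.mul_sum, ← Equiv.sum_comp (Equiv.mulLeft g) σ]
      simp
    rwa [h1] at this
  have h3 := congrArg (fun T => LinearMap.trace ℂ _ (ρ a * T * ρ b)) h2
  simp only [Finset.mul_sum, Finset.sum_mul, map_sum, hσ, mul_smul_comm, smul_mul_assoc, map_smul, mul_zero,
    zero_mul, map_zero, smul_eq_mul] at h3
  simp only [classInner, Representation.character, map_mul, hf_apply]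
  rw [← mul_zero ((Nat.card P : ℂ)⁻¹), ← h3]
  exact congrArg _ (Finset.sum_congr rfl fun u _ => mul_comm _ _)

open Classical in
theorem ex_char {P : Type*} [Group P] [Fintype P] (j : P →* G) (hc : ∀ a b : P, a * b = b * a) {χ : G → ℂ}
    (hχ : IsCharacter G χ) (x : P) (b : G) : ExS (fun a => χ (a * b)) (j x)
      (Finset.univ.filter fun l : P →* ℂˣ => classInner (fun u : P => χ (j u)) (hf l) ≠ 0) (fun l => l x) := fun a => by
  refine ⟨fun l => classInner (fun u : P => χ (a * j u * b)) (hf l), fun n => ?_⟩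
  have := congrFun (eq_sum_hf hc fun u : P => χ (a * j u * b)) (x ^ n)
  rw [Finset.sum_filter_of_ne]
  · simpa using this
  · intro l _ h h'
    exact h (by simp only [inner_shift_eq_zero j hχ h', zero_mul])

theorem tf_nil [Fintype G] [Finite Γ] [Fact p.Prime] (hM : IsPModular p M) (δ : G →* Γ) {x : G} (hx : orderOf x = p)
    {H : Subgroup G} [Fintype H] (hfree : ∀ g, g ∉ H → ∀ u ∈ zpowers x, g⁻¹ * u * g ∈ H → u = 1) (hxH : x ∈ H)
    {Φ : Γ → ℂ} {l : ℕ} (hl : l ≤ p - 1) (hN : NilC M Φ (δ x) l) :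
    classInner (fun h : H => Φ (δ h)) (fun _ => 1) = classInner (fun g => Φ (δ g)) (fun _ => 1) := by
  have := Fintype.ofFinite (zpowers x)
  have := charP_k hM
  let f : Γ → ℂ := fun a => (Nat.card H : ℂ)⁻¹ * ∑ h : H, Φ (a * δ h) - (Nat.card G : ℂ)⁻¹ * ∑ g, Φ (a * δ g)
  have h1 : ∀ a y, ∑ g, Φ (a * δ y * δ g) = ∑ g, Φ (a * δ g) := fun a y => by
    rw [← Equiv.sum_comp (Equiv.mulLeft y) (fun g => Φ (a * δ g))]; simp [mul_assoc]
  have h2 : ∀ a y, ∑ g, Φ (a * δ g * δ y) = ∑ g, Φ (a * δ g) := fun a y => by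
    rw [← Equiv.sum_comp (Equiv.mulRight y) (fun g => Φ (a * δ g))]; simp [mul_assoc]
  have key := tf_core (M := M) δ hfree (zpowers_le.2 hxH) (f := f) (fun a y hy => by
      simp only [f, h1]
      rw [← Equiv.sum_comp (Equiv.mulLeft (⟨y, hy⟩ : H)) (fun h : H => Φ (a * δ h))]; simp [mul_assoc])
    (fun a => by
      simp only [f, h1, Finset.sum_sub_distrib, ← Finset.mul_sum]
      rw [Finset.sum_comm]
      simp only [h2, Finset.sum_const, Finset.card_univ, nsmul_eq_mul, ← Nat.card_eq_fintype_card]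
      have := card_ne_zero' G
      have := card_ne_zero' H
      field_simp
      ring) ?_
  · have := congrFun key 1
    simpa [f, classInner, sub_eq_zero] using this
  intro c hc a g
  have h3 : (fun a => c * f (a * δ g)) ∈ TS Φ := by
    have h4 : ∀ b, (fun a => Φ (a * b)) ∈ TS Φ := fun b => Submodule.subset_span ⟨b, rfl⟩
    convert Submodule.smul_mem _ c (sub_mem (Submodule.smul_mem _ (Nat.card H : ℂ)⁻¹
      (Submodule.sum_mem _ (t := Finset.univ) fun (h : H) _ => h4 (δ g * δ h))) (Submodule.smul_mem _ (Nat.card G : ℂ)⁻¹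
      (Submodule.sum_mem _ (t := Finset.univ) fun (y : G) _ => h4 (δ g * δ y)))) using 1
    funext a
    simp [f, mul_assoc]
  have h5 := hN _ h3 fun a => hc _
  obtain ⟨j, e⟩ := Nat.exists_eq_add_of_le' hl
  have h6 := geom_char_pow (F := k M) (p := p) (Rt (k M) (δ x)) 1
  rw [pow_one, e, pow_add] at h6
  have h7 := congrFun (LinearMap.congr_fun h6 fun a => red M (c * f (a * δ g))) a
  rw [Module.End.mul_apply, h5, map_zero, ← hx, ← Fin.sum_univ_eq_sum_range, LinearMap.sum_apply,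
    Finset.sum_apply] at h7
  rw [← (finEquivZPowers (isOfFinOrder_of_finite x)).sum_comp]
  simpa [finEquivZPowers_apply, ← map_pow] using h7

end H3
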