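import Cfsg.Agent.H3.Tf2
import Cfsg.Agent.H4.BS

/-! H3.Tf3: groups with a Sylow subgroup of prime order: multiplicity of the trivial character of `C(P)`. -/

set_option autoImplicit false
open Cfsg Subgroup H4
open scoped ComplexConjugate Pointwise

namespace H3

variable {G : Type*} [Group G] {M : Ideal AlgInt} {p : ℕ}

theorem char_ind_con [Fintype G] {Q : (G → ℂ) → Prop} (h0 : Q 0) (hadd : ∀ a b, Q a → Q b → Q (a + b)) {Θ : G → ℂ}
    (hΘ : IsCharacter G Θ) (h : ∀ ψ, IsIrrCharacter G ψ → classInner Θ ψ ≠ 0 → Q ψ) : Q Θ := by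
  obtain ⟨c, h1, h2⟩ := char_eq_sum_nat hΘ
  rw [h2]
  refine Finset.sum_induction _ Q hadd h0 fun χ _ => ?_
  by_cases hc : c χ = 0
  · simpa [hc] using h0
  have h3 := h _ χ.2 (by rw [h1]; exact_mod_cast hc)
  generalize c χ = n
  induction n with
  | zero => simpa using h0
  | succ n ih => simpa [add_smul] using hadd _ _ ih h3

theorem inner_le_res [Fintype G] (H : Subgroup G) [Fintype H] {a b : G → ℂ} (ha : IsCharacter G a)
    (hb : IsCharacter G b) : (classInner a b).re ≤ (classInner (fun h : H => a h) (fun h : H => b h)).re := by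
  have h1 : IsCharacter G (b * fun g => conj (a g)) := char_mul hb (char_conj ha)
  have h2 := char_indFun H (char_one (G := H))
  have h3 := char_sub_of_inner_ne_zero h2 isIrr_one (by
    rw [inner_indFun_left _ _ (class_const 1), irr_inner_self isIrr_one]; exact one_ne_zero)
  obtain ⟨m, hm⟩ := inner_char_nat h2 h1
  obtain ⟨n, hn⟩ := inner_char_nat char_one h1
  have h4 := inner_le_of_sub h3 h1 hm hn
  rw [inner_indFun_left _ _ (char_class h1)] at hm
  have e1 : classInner a b = n := by rw [← hn]; simp [classInner, mul_comm]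
  have e2 : classInner (fun h : H => a h) (fun h : H => b h) = m := by rw [← hm]; simp [classInner, mul_comm]
  rw [e1, e2]; simpa using h4

theorem irr_res_of_inner [Fintype G] (H : Subgroup G) [Fintype H] {Θ ψ : G → ℂ} (hΘ : IsCharacter G Θ)
    (h : classInner (fun h : H => Θ h) (fun h : H => Θ h) = classInner Θ Θ) (hψ : IsIrrCharacter G ψ)
    (hc : classInner Θ ψ ≠ 0) : IsIrrCharacter H fun h : H => ψ h := by
  have h1 := char_sub_of_inner_ne_zero hΘ hψ hc
  have h2 := irr_char hψ
  obtain ⟨b, hb⟩ : ∃ b, b = Θ - ψ := ⟨_, rfl⟩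
  obtain rfl : Θ = ψ + b := by rw [hb]; ring
  rw [← hb] at h1
  have e : (fun h : H => (ψ + b) h) = (fun h : H => ψ h) + fun h : H => b h := rfl
  rw [e] at h
  simp only [H3.inner_add_left, H3.inner_add_right] at h
  have h3 := congrArg Complex.re h
  simp only [Complex.add_re] at h3
  have k1 := inner_le_res H h2 h2
  have k2 := inner_le_res H h2 h1
  have k3 := inner_le_res H h1 h2
  have k4 := inner_le_res H h1 h1
  refine isIrr_of_norm_one (char_restrict h2 H) (Complex.ext ?_ (by rw [H3.inner_self_im]; rfl))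
  rw [irr_inner_self hψ] at h3 k1
  linarith

theorem avg_central [Fintype G] [Fact p.Prime] (hM : IsPModular p M) (Q : Sylow p G) [Fintype (Q : Subgroup G)]
    (hQ : (Q : Subgroup G) ≤ center G) {θ : G → ℂ} (hθ : IsCharacter G θ) :
    Nat.card (Q : Subgroup G) * classInner θ (fun _ => 1) =
      ∑ q : (Q : Subgroup G), blockPart (principalBlock M G) θ q := by
  classical
  obtain ⟨P', K, hK, hc⟩ := NPC_of_central Q hQ
  have : (Q : Subgroup G).Normal := ⟨fun y hy g => by
    rw [mem_center_iff.1 (hQ hy) g, mul_inv_cancel_right]; exact hy⟩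
  have := Sylow.unique_of_normal Q this
  obtain rfl : P' = Q := Subsingleton.elim _ _
  have hK' : ¬ p ∣ Nat.card K := by rw [← hc.index_eq_card]; exact P'.not_dvd_index
  have h1 := inner_blockPart (principalBlock M G) θ (triv G)
  rw [if_pos (triv_mem_principal hM)] at h1
  have h2 : ∀ k ∈ K, ∀ g, blockPart (principalBlock M G) θ (k * g) = blockPart (principalBlock M G) θ g :=
    fun k hk g => by
      simp only [blockPart_eq, Finset.sum_apply, Pi.smul_apply]
      exact Finset.sum_congr rfl fun χ hχ => by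
        rw [char_ker_mul (irr_char χ.2) (ker_of_principal hM hK' (mem_fs.1 hχ) k hk)]
  have := Fintype.ofFinite K
  refine (congrArg _ h1.symm).trans ?_
  have h3 : ∑ g, blockPart (principalBlock M G) θ g =
      ∑ z : K × (P' : Subgroup G), blockPart (principalBlock M G) θ (z.1 * z.2) :=
    (Fintype.sum_bijective _ hc _ _ fun _ => rfl).symm
  simp only [classInner, triv_apply, map_one, mul_one, h3, Fintype.sum_prod_type, h2 _ (SetLike.coe_mem _),
    Finset.sum_const, Finset.card_univ, nsmul_eq_mul, ← Nat.card_eq_fintype_card, ← hc.card_mul]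
  have := card_ne_zero' K
  have := card_ne_zero' (P' : Subgroup G)
  push_cast
  field_simp

theorem zpowers_of_prime [Fact p.Prime] {P : Subgroup G} (hP : Nat.card P = p) {t : G} (ht : t ∈ P) (h1 : t ≠ 1) :
    zpowers t = P := by
  have : Finite P := Nat.finite_of_card_ne_zero (hP ▸ (Fact.out : p.Prime).ne_zero)
  have := Fact.mk (hP ▸ (Fact.out : p.Prime) : (Nat.card P).Prime)
  refine le_antisymm (zpowers_le.2 ht) fun y hy => ?_
  obtain ⟨n, hn⟩ := mem_zpowers_of_prime_card (G := P) (p := Nat.card P) rfl (g := ⟨t, ht⟩) (g' := ⟨y, hy⟩)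
    (fun h => h1 (congrArg Subtype.val h))
  exact ⟨n, congrArg Subtype.val hn⟩

theorem blk_sum [Fintype G] [Fact p.Prime] (hM : IsPModular p M) (P : Sylow p G) [Fintype (P : Subgroup G)]
    (hP : Nat.card (P : Subgroup G) = p) [Fintype (CS (P : Subgroup G))] (ψ : IrrCharacter G) {d : ℕ}
    (hd : ψ.1 1 = d) [DecidableEq (P : Subgroup G)] :
    ∃ a : ℕ, a ≤ d ∧ p * classInner (fun c : CS (P : Subgroup G) => ψ.1 c) (fun _ => 1) =
      a + ∑ t ∈ Finset.univ.erase (1 : (P : Subgroup G)), blockPart (principalBlock M G) ψ.1 t := by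
  classical
  have : Nontrivial (P : Subgroup G) := Finite.one_lt_card_iff_nontrivial.1 (by rw [hP]; exact (Fact.out : p.Prime).one_lt)
  obtain ⟨⟨x, hx⟩, h1⟩ := exists_ne (1 : (P : Subgroup G))
  have hx1 : x ≠ 1 := fun h => h1 (Subtype.ext h)
  have hC : ∀ t ∈ (P : Subgroup G), t ≠ 1 → CS (P : Subgroup G) = C1 t := fun t ht h => by
    rw [CS, ← zpowers_of_prime hP ht h, H4.centralizer_zpowers]
  have hPC : (P : Subgroup G) ≤ CS P := by
    rw [hC x hx hx1, ← zpowers_of_prime hP hx hx1]; exact zpowers_le_C1 x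
  have hθ := char_restrict (irr_char ψ.2) (CS (P : Subgroup G))
  have := Fintype.ofFinite (P.subtype hPC : Subgroup (CS (P : Subgroup G)))
  have h2 := avg_central hM (P.subtype hPC) (fun y hy => mem_center_iff.2 fun c => Subtype.ext (c.2 _ hy).symm) hθ
  obtain ⟨a, ha⟩ := char_one_nat (char_blockPart hθ (principalBlock M _))
  refine ⟨a, degree_le_of_sub (isCharacter_of_inner (class_sub (char_class hθ) (class_blockPart _ _)) fun χ hχ => ?_)
    hd ha, ?_⟩
  · rw [H3.inner_sub_left, inner_blockPart _ _ ⟨χ, hχ⟩]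
    split_ifs
    · exact ⟨0, by simp⟩
    · simpa using inner_char_nat hθ (irr_char hχ)
  rw [show Nat.card (P.subtype hPC : Subgroup (CS (P : Subgroup G))) = p from
    (Nat.card_congr (subgroupOfEquivOfLe hPC).toEquiv).trans hP] at h2
  refine h2.trans ((@Fintype.sum_equiv _ _ _ _ this _ (subgroupOfEquivOfLe hPC).symm.toEquiv
    (fun t => blockPart (principalBlock M _) (fun c : CS (P : Subgroup G) => ψ.1 c) ⟨t, hPC t.2⟩) _
      fun _ => rfl).symm.trans ?_)
  rw [← Finset.add_sum_erase _ _ (Finset.mem_univ 1), ← ha]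
  refine congrArg₂ _ rfl (Finset.sum_congr rfl fun t ht => ?_)
  have ht1 : (t : G) ≠ 1 := fun h => (Finset.mem_erase.1 ht).1 (Subtype.ext h)
  have h3 := isPElt_of_mem Fact.out P.isPGroup' t.2
  refine (second_main_principal hM (H := CS (P : Subgroup G)) ?_ ⟨t, hPC t.2⟩ ?_ (irr_class ψ.2)).symm
  · rw [hC t t.2 ht1]; exact fun b hb => defined_C1 hM h3 hb
  · rw [pp_of_isPElt Fact.out h3, hC t t.2 ht1]

theorem blk_bound [Fintype G] [Fact p.Prime] (P : Sylow p G) (hP : Nat.card (P : Subgroup G) = p)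
    [Fintype (CS (P : Subgroup G))] {ψ : G → ℂ} (hψ : IsIrrCharacter G ψ) {d m : ℕ} (hd : ψ 1 = d)
    (hm : classInner (fun c : CS (P : Subgroup G) => ψ c) (fun _ => 1) = m) :
    p * m ≤ d + (CS (P : Subgroup G)).relIndex (NS (P : Subgroup G)) ∨
      (p * m + 1 ≤ d + p ∧ ∀ t ∈ (P : Subgroup G), t ≠ 1 → ψ t = 1) := by
  classical
  have := Fintype.ofFinite (P : Subgroup G)
  obtain ⟨M, hM⟩ := exists_isPModular (p := p) Fact.out
  obtain ⟨a, ha, h1⟩ := blk_sum hM P hP ⟨ψ, hψ⟩ hd
  rw [hm] at h1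
  by_cases hB : (⟨ψ, hψ⟩ : IrrCharacter G) ∈ principalBlock M G
  swap
  · rw [blockPart_irr_of_notMem hB] at h1
    simp only [Pi.zero_apply, Finset.sum_const_zero, add_zero] at h1
    have : p * m = a := by exact_mod_cast h1
    omega
  rw [blockPart_irr_of_mem hB] at h1
  have hc := isCyclic_of_prime_card hP
  have h0 : (P : Subgroup G) ≠ ⊥ := fun h => (Fact.out : p.Prime).one_lt.ne' (by rw [← hP, h, card_bot])
  have := (nontrivial_iff_ne_bot _).2 h0
  have hF := fb_cyc hM isPBlock_principal (maxP_e0 hM P) hc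
  obtain ⟨Θ, x, h2, h3⟩ := hF.principal_fs
  obtain ⟨ζ, c, δ, h4, -, h6⟩ := h2.dade (cyc_card_ge hF hc h0)
  have h7 : ∀ t : (P : Subgroup G), t ≠ 1 → ψ t = x ⟨ψ, hψ⟩ t := fun t ht =>
    h3 _ hB t ht t (pp_of_isPElt Fact.out (isPElt_of_mem Fact.out P.isPGroup' t.2))
  have h8 := card_ga (Stab_le (NS (P : Subgroup G)) (e0 M (P : Subgroup G)))
  conv_rhs at h8 => rw [stab_e0 hM]
  rw [← h8]
  rw [Finset.sum_congr rfl fun t ht => h7 t (Finset.mem_erase.1 ht).1] at h1
  set Γ := ga (P : Subgroup G) (Stab (NS (P : Subgroup G)) (e0 M (P : Subgroup G)))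
  by_cases k : (⟨ψ, hψ⟩ : IrrCharacter G) ∈ ζ '' OS Γ
  · obtain ⟨o, ho, e⟩ := k
    rw [← e, Finset.sum_congr rfl fun t ht => h4.val o ho t (Finset.mem_erase.1 ht).1] at h1
    obtain ⟨l, hl, rfl⟩ := mem_OS.1 ho
    have h9 : ∑ t, os Γ l t = 0 := by
      simp only [os_apply]
      rw [Finset.sum_comm]
      refine Finset.sum_eq_zero fun γ _ => ?_
      refine (Equiv.sum_comp γ.toEquiv (fun t => (l t : ℂ))).trans ?_
      have := inner_hom l 1
      rw [if_neg hl] at this
      simpa [classInner] using this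
    rw [← Finset.add_sum_erase _ _ (Finset.mem_univ 1), os_one] at h9
    simp only [Int.cast_zero, zero_add, ← Finset.mul_sum, eq_neg_of_add_eq_zero_right h9] at h1
    have : (p * m : ℤ) = a + δ * -(Nat.card Γ : ℤ) := by exact_mod_cast h1
    left
    rcases h4.sign with rfl | rfl <;> push_cast at this <;> nlinarith
  · have h9 := (h4.val' _ ⟨hB, k⟩).2
    rw [Finset.sum_congr rfl fun t ht => h9 t (Finset.mem_erase.1 ht).1, Finset.sum_const,
      Finset.card_erase_of_mem (Finset.mem_univ _), Finset.card_univ, ← Nat.card_eq_fintype_card, hP] at h1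
    obtain ⟨q, rfl⟩ : ∃ q, p = q + 1 := ⟨p - 1, by have := (Fact.out : p.Prime).pos; omega⟩
    have : ((q + 1) * m : ℤ) = a + q * c ⟨ψ, hψ⟩ := by
      rw [Nat.add_sub_cancel, nsmul_eq_mul] at h1; exact_mod_cast h1
    rcases h6 _ ⟨hB, k⟩ with e | e
    · refine Or.inr ⟨by rw [e] at this; nlinarith, fun t ht h => ?_⟩
      rw [h7 ⟨t, ht⟩ fun h' => h (congrArg Subtype.val h'), h9 _ fun h' => h (congrArg Subtype.val h'), e]
      simp
    · left; rw [e] at this; nlinarith

end H3
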