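import Cfsg.Agent.H3.Tf3

/-! H3.Tf4: Brauer's bound `p ≤ 2 χ(1) + 1` for groups with a non-normal Sylow subgroup of order `p`. -/

set_option autoImplicit false
open Cfsg Subgroup H4
open scoped ComplexConjugate Pointwise

namespace H3

variable {G : Type*} [Group G] {p : ℕ}

theorem ti_of_prime [Finite G] [Fact p.Prime] (P : Sylow p G) (hP : Nat.card (P : Subgroup G) = p) (g : G)
    (hg : g ∉ normalizer ((P : Subgroup G) : Set G)) : (P : Subgroup G) ⊓ (MulAut.conj g • (P : Subgroup G)) = ⊥ := by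
  rw [eq_bot_iff]
  intro x ⟨h1, h2⟩
  by_contra h3
  have h4 : Nat.card (g • P : Sylow p G) = p :=
    ((Sylow.card_eq_multiplicity _).trans (Sylow.card_eq_multiplicity P).symm).trans hP
  exact hg (Sylow.smul_eq_iff_mem_normalizer.1 (Sylow.ext ((zpowers_of_prime h4 h2 h3).symm.trans
    (zpowers_of_prime hP h1 h3))))

theorem exists_ne_of_closure [Finite G] {P : Subgroup G} (hG : normalClosure (P : Set G) = ⊤) {ψ : G → ℂ}
    (hψ : IsIrrCharacter G ψ) (h : ψ ≠ fun _ => 1) : ∃ t ∈ P, ψ t ≠ ψ 1 := by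
  by_contra! k
  have := charKer_normal (irr_class hψ)
  exact charKer_ne_top hψ h (eq_top_iff.2 (hG ▸ normalClosure_le_normal fun t ht =>
    (mem_charKer (irr_char hψ) t).2 (k t ht)))

theorem blk_bound' [Fintype G] [Fact p.Prime] (P : Sylow p G) (hP : Nat.card (P : Subgroup G) = p)
    [Fintype (CS (P : Subgroup G))] (hG : normalClosure ((P : Subgroup G) : Set G) = ⊤)
    (he : 2 * (CS (P : Subgroup G)).relIndex (NS (P : Subgroup G)) + 1 ≤ p) {ψ : G → ℂ} (hψ : IsIrrCharacter G ψ)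
    (h1 : ψ ≠ fun _ => 1) :
    (p + 1) * (classInner (fun c : CS (P : Subgroup G) => ψ c) (fun _ => 1)).re ≤ 2 * (ψ 1).re := by
  classical
  obtain ⟨d, hd0, hd⟩ := irr_one_nat hψ
  obtain ⟨m, hm⟩ := inner_char_nat (char_restrict (irr_char hψ) (CS (P : Subgroup G))) char_one
  have h2 := blk_bound P hP hψ hd hm
  rw [hm, hd]
  suffices (p + 1) * m ≤ 2 * d by exact_mod_cast this
  rcases Nat.eq_zero_or_pos m with rfl | m0
  · omega
  rcases h2 with h | ⟨h, h3⟩
  · nlinarith
  have := Fintype.ofFinite (P : Subgroup G)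
  obtain ⟨j, hj⟩ := inner_char_nat (char_restrict (irr_char hψ) (P : Subgroup G)) char_one
  simp only [classInner, map_one, mul_one, hP] at hj
  rw [← Finset.add_sum_erase _ _ (Finset.mem_univ 1), Finset.sum_congr rfl fun (t : (P : Subgroup G)) ht => h3 t t.2 fun h =>
    (Finset.mem_erase.1 ht).1 (Subtype.ext h), Finset.sum_const, Finset.card_erase_of_mem (Finset.mem_univ _),
    Finset.card_univ, ← Nat.card_eq_fintype_card, hP, coe_one, hd,
    inv_mul_eq_iff_eq_mul₀ (Nat.cast_ne_zero.2 (Fact.out : p.Prime).ne_zero)] at hj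
  have h4 : d + (p - 1) = p * j := by rw [nsmul_eq_mul, mul_one] at hj; exact_mod_cast hj
  have h5 : d ≠ 1 := by
    rintro rfl
    obtain ⟨t, ht, h6⟩ := exists_ne_of_closure hG hψ h1
    by_cases e : t = 1
    · exact h6 (by rw [e])
    · exact h6 (by rw [h3 t ht e, hd, Nat.cast_one])
  have h6 := (Fact.out : p.Prime).two_le
  obtain ⟨q, rfl⟩ : ∃ q, p = q + 1 := ⟨p - 1, by omega⟩
  have h7 : 2 ≤ j := by
    by_contra h7
    obtain rfl | rfl : j = 0 ∨ j = 1 := by omega
    all_goals omega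
  rcases (by omega : m = 1 ∨ 2 ≤ m) with rfl | h8
  · simp only [Nat.add_sub_cancel] at h4; nlinarith
  · nlinarith

theorem nilC_of_ex' {Γ ι : Type*} [Group Γ] [DecidableEq ι] [Fact p.Prime] {M : Ideal AlgInt} (hM : IsPModular p M)
    {Φ : Γ → ℂ} {y : Γ} {S : Finset ι} {ζ : ι → ℂ} (hζ : ∀ i, ζ i ^ p = 1) (h : ∀ b, ExS (fun a => Φ (a * b)) y S ζ) :
    NilC M Φ y S.card := nilC_of_ex (fun i => ⟨mem_O_of_pow_eq_one (Fact.out : p.Prime).ne_zero (hζ i),
      red_eq_one_of_pow_p_pow hM (n := 1) (by rw [pow_one, hζ])⟩) h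

theorem nil_two {Γ ι : Type*} [Group Γ] [DecidableEq ι] [Fact p.Prime] {M : Ideal AlgInt} (hM : IsPModular p M)
    {Φ : Γ → ℂ} {y : Γ} {S : Finset ι} {ζ : ι → ℂ} (hζ : ∀ i, ζ i ^ p = 1) (h : ∀ b, ExS (fun a => Φ (a * b)) y S ζ) :
    NilC M (fun z : Γ × Γ => Φ z.1 * conj (Φ z.2)) (y, y) (S.card + S.card - 1) := by
  have hζ' : ∀ i, conj (ζ i) ^ p = 1 := fun i => by rw [← map_pow, hζ, map_one]
  have h1 := nilC_of_ex' hM (Φ := fun z : Γ × Γ => Φ z.1 * conj (Φ z.2)) hζ (ex_left h fun g => conj (Φ g))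
  have h2 := nilC_of_ex' hM (Φ := fun z : Γ × Γ => Φ z.1 * conj (Φ z.2)) hζ'
    (ex_right (Φ := fun g => conj (Φ g)) (ex_conj h) Φ)
  have := h1.mul h2 (by simp [Commute, SemiconjBy])
  rwa [Prod.mk_mul_mk, mul_one, one_mul] at this

theorem nil_four {Γ ι : Type*} [Group Γ] [DecidableEq ι] [Fact p.Prime] {M : Ideal AlgInt} (hM : IsPModular p M)
    {Φ : Γ → ℂ} {y : Γ} {S : Finset ι} {ζ : ι → ℂ} (hζ : ∀ i, ζ i ^ p = 1) (h : ∀ b, ExS (fun a => Φ (a * b)) y S ζ) :
    NilC M (fun z : (Γ × Γ) × Γ × Γ => Φ z.1.1 * conj (Φ z.1.2) * conj (Φ z.2.1 * conj (Φ z.2.2))) ((y, y), (y, y))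
      (S.card + S.card - 1 + (S.card + S.card - 1) - 1) := by
  have hζ' : ∀ i, conj (ζ i) ^ p = 1 := fun i => by rw [← map_pow, hζ, map_one]
  have hζ'' : ∀ i, conj (conj (ζ i)) ^ p = 1 := fun i => by rw [← map_pow, hζ', map_one]
  obtain ⟨Ψ, hΨ⟩ : ∃ Ψ : Γ × Γ → ℂ, Ψ = fun z => Φ z.1 * conj (Φ z.2) := ⟨_, rfl⟩
  have e2 : ∀ b, ExS (fun a => Ψ (a * b)) (y, 1) S ζ := hΨ ▸ ex_left h fun g => conj (Φ g)
  have e3 : ∀ b, ExS (fun a => Ψ (a * b)) (1, y) S fun i => conj (ζ i) :=
    hΨ ▸ ex_right (Φ := fun g => conj (Φ g)) (ex_conj h) Φ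
  have h1 := nilC_of_ex' hM (Φ := fun z : (Γ × Γ) × Γ × Γ => Ψ z.1 * conj (Ψ z.2)) hζ (ex_left e2 fun g => conj (Ψ g))
  have h2 := nilC_of_ex' hM (Φ := fun z : (Γ × Γ) × Γ × Γ => Ψ z.1 * conj (Ψ z.2)) hζ' (ex_left e3 fun g => conj (Ψ g))
  have h3 := nilC_of_ex' hM (Φ := fun z : (Γ × Γ) × Γ × Γ => Ψ z.1 * conj (Ψ z.2)) hζ'
    (ex_right (Φ := fun g => conj (Ψ g)) (ex_conj e2) Ψ)
  have h4 := nilC_of_ex' hM (Φ := fun z : (Γ × Γ) × Γ × Γ => Ψ z.1 * conj (Ψ z.2)) hζ''
    (ex_right (Φ := fun g => conj (Ψ g)) (ex_conj e3) Ψ)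
  have := (h1.mul h2 (by simp [Commute, SemiconjBy])).mul (h3.mul h4 (by simp [Commute, SemiconjBy]))
    (by simp [Commute, SemiconjBy])
  simp only [Prod.mk_mul_mk, mul_one, one_mul] at this
  subst hΨ
  exact this

set_option maxHeartbeats 1600000 in
theorem brauer_half [Finite G] [Fact p.Prime] (P : Sylow p G) (hP : Nat.card (P : Subgroup G) = p)
    (hG : normalClosure ((P : Subgroup G) : Set G) = ⊤) {χ : G → ℂ} (hχ : IsIrrCharacter G χ) {n : ℕ} (hn : χ 1 = n)
    (h1 : n ≠ 1) : p ≤ 2 * n + 1 := by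
  classical
  by_contra! hlt
  have := Fintype.ofFinite G
  obtain ⟨M, hM⟩ := exists_isPModular (p := p) Fact.out
  set N := NS (P : Subgroup G)
  set C := CS (P : Subgroup G)
  have := Fintype.ofFinite N
  have := Fintype.ofFinite C
  have hPN : (P : Subgroup G) ≤ N := le_normalizer
  let A := (P : Subgroup G).subgroupOf N
  have : A.Normal := normal_in_normalizer
  have := Fintype.ofFinite A
  have hA : Nat.card A = p := (Nat.card_congr (subgroupOfEquivOfLe hPN).toEquiv).trans hP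
  have : IsCyclic A := isCyclic_of_prime_card hA
  have hc : ∀ a b : A, a * b = b * a := fun a b => (IsCyclic.commutative (α := A)).is_comm.comm a b
  have : Nontrivial A := Finite.one_lt_card_iff_nontrivial.1 (by rw [hA]; exact (Fact.out : p.Prime).one_lt)
  obtain ⟨x, hx⟩ := exists_ne (1 : A)
  let j : A →* G := N.subtype.comp A.subtype
  have hj : ∀ a : A, j a ∈ (P : Subgroup G) := fun a => a.2
  have hj1 : ∀ a : A, a ≠ 1 → j a ≠ 1 := fun a h e => h (Subtype.ext (Subtype.ext e))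
  have hz := zpowers_of_prime hP (hj x) (hj1 x hx)
  have ho : orderOf (j x) = p := by rw [← Nat.card_zpowers, hz, hP]
  have hfree := tf_free P (ti_of_prime P hP) (H := N) le_rfl
  rw [← hz] at hfree
  set S := Finset.univ.filter fun l : A →* ℂˣ => classInner (fun u : A => χ (j u)) (hf l) ≠ 0 with hS
  have hζ : ∀ l : A →* ℂˣ, (l x : ℂ) ^ p = 1 := fun l => hA ▸ hom_pow_card l x
  have hmem : ∀ l ∈ S, classInner (fun u : A => χ (j u)) (hf l) ≠ 0 := fun l hl => (Finset.mem_filter.1 hl).2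
  have e1 := ex_char j hc (irr_char hχ) x
  rw [← hS] at e1
  have hχA := char_comp (irr_char hχ) j
  have hSn : S.card ≤ n := by
    have h2 := congrFun (eq_sum_hf hc fun u : A => χ (j u)) 1
    choose c hc using fun l : A →* ℂˣ => inner_char_nat hχA (char_hom l)
    have hc' : ∀ l, classInner (fun u : A => χ (j u)) (hf l) = c l := hc
    simp only [map_one, hn, Finset.sum_apply, Pi.smul_apply, hf_apply, Units.val_one, smul_eq_mul, mul_one, hc'] at h2
    have h3 : n = ∑ l, c l := by exact_mod_cast h2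
    rw [h3, Finset.card_eq_sum_ones]
    exact (Finset.sum_le_sum fun l hl => Nat.one_le_iff_ne_zero.2 fun h => hmem l hl
      (by rw [hc', h, Nat.cast_zero])).trans (Finset.sum_le_sum_of_subset (Finset.subset_univ _))
  have hin : ∀ {K : Type _} [Group K] [Fintype K] (a : K → ℂ),
      classInner a a = classInner (fun g => a g * conj (a g)) (fun _ => 1) := fun a => by simp [classInner]
  have hN : IsIrrCharacter N fun g : N => χ g := by
    refine isIrr_of_norm_one (char_restrict (irr_char hχ) N) ?_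
    rw [← irr_inner_self hχ, hin, hin]
    exact tf_nil hM ((MonoidHom.id G).prod (MonoidHom.id G)) ho hfree (hPN (hj x))
      (Φ := fun z => χ z.1 * conj (χ z.2)) (l := S.card + S.card - 1) (by omega)
      (nil_two hM hζ e1)
  have hker : ∀ ψ, IsIrrCharacter G ψ → (ψ ≠ fun _ => 1) → ∃ a ∈ A, ψ a ≠ ψ (1 : N) := fun ψ hψ h => by
    obtain ⟨t, ht, h2⟩ := exists_ne_of_closure hG hψ h
    exact ⟨⟨t, hPN ht⟩, ht, h2⟩
  have hχ1 : χ ≠ fun _ => 1 := by rintro rfl; exact h1 (by exact_mod_cast (show (1 : ℂ) = n from hn).symm)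
  have hcen : ∀ g : N, ∀ a : A, a ≠ 1 → g * a = a * g → (g : G) ∈ C := fun g a ha e => by
    rw [show C = _ from congrArg (fun Q : Subgroup G => centralizer (Q : Set G))
      (zpowers_of_prime hP (hj a) (hj1 a ha)).symm, H4.centralizer_zpowers]
    exact mem_centralizer_singleton_iff.2 (congrArg Subtype.val e)
  obtain ⟨θ, hθ, hθ'⟩ := exists_irr_under A hN
  obtain ⟨l, rfl⟩ := irr_exists_hom_of_comm hθ hc
  have hl : l ≠ 1 := by rintro rfl; exact hθ' (inner_restrict_one_eq_zero A hN (hker χ hχ hχ1))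
  have hI : inertia A (fun g => (l g : ℂ)) = C.subgroupOf N := by
    refine le_antisymm (fun g hg => hcen g x hx ?_) fun g hg => (mem_inertia' _).2 fun a => ?_
    · have := Fact.mk (hA ▸ (Fact.out : p.Prime) : (Nat.card A).Prime)
      have h2 := (l.ker.eq_bot_or_eq_top_of_prime_card).resolve_right fun h => hl (MonoidHom.ext fun a => by
        simpa using (h ▸ mem_top a : a ∈ l.ker))
      have h3 := congrArg Subtype.val ((MonoidHom.ker_eq_bot_iff l).1 h2 (Units.ext ((mem_inertia' _).1 hg x)))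
      exact mul_inv_eq_iff_eq_mul.1 h3
    · congr 2
      exact Subtype.ext (Subtype.ext (mul_inv_eq_iff_eq_mul.2 (hg _ (hj a)).symm))
  have hd := clifford_degree A hN hθ hθ'
  obtain ⟨f, hf'⟩ := inner_char_nat (char_restrict (irr_char hN) A) (irr_char hθ)
  rw [hf', hI, map_one, Units.val_one, mul_one] at hd
  set e := (C.subgroupOf N).index with he
  have hfe : n = f * e := by exact_mod_cast hn.symm.trans hd
  have hSe : S.card ≤ e := by
    rw [he, ← hI, ← card_cjOrbit]
    exact Finset.card_le_card_of_injOn (fun l => hf l) (fun m hm => (mem_cjOrbit _).2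
      (cj_of_inner_ne_zero A hN hθ (isIrr_hom m) hθ' (hmem m hm))) hom_fun_injective.injOn
  have hΨ : IsCharacter G fun g => χ g * conj (χ g) := char_mul (irr_char hχ) (char_conj (irr_char hχ))
  have hΨ1 : classInner (fun g => χ g * conj (χ g)) (fun _ => 1) = 1 := by rw [← hin, irr_inner_self hχ]
  have hΨ' := char_sub_of_inner_ne_zero hΨ isIrr_one (by rw [hΨ1]; exact one_ne_zero)
  have hcon : ∀ ψ, IsIrrCharacter G ψ → classInner ((fun g => χ g * conj (χ g)) - fun _ => 1) ψ ≠ 0 →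
      (ψ ≠ fun _ => 1) ∧ classInner (fun g => χ g * conj (χ g)) ψ ≠ 0 := fun ψ hψ h => by
    have h2 : ψ ≠ fun _ => 1 := by
      rintro rfl; exact h (by rw [H3.inner_sub_left, hΨ1, irr_inner_self isIrr_one, sub_self])
    exact ⟨h2, by rwa [H3.inner_sub_left, irr_inner_ne isIrr_one hψ h2.symm, sub_zero] at h⟩
  have n0 : n ≠ 0 := by rintro rfl; exact irr_one_ne_zero hχ (by simpa using hn)
  by_cases h2 : 2 ≤ f
  · have h3 := tf_nil hM (((MonoidHom.id G).prod (MonoidHom.id G)).prod ((MonoidHom.id G).prod (MonoidHom.id G)))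
      ho hfree (hPN (hj x)) (Φ := fun z => χ z.1.1 * conj (χ z.1.2) * conj (χ z.2.1 * conj (χ z.2.2)))
      (l := (S.card + S.card - 1) + (S.card + S.card - 1) - 1) (by
        have : 2 * e ≤ n := by nlinarith
        omega)
      (nil_four hM hζ e1)
    have h4 := char_ind_con (Q := fun Θ => classInner (fun a : A => Θ (j a)) (fun _ => 1) = 0) (by simp [classInner])
      (fun a b ha hb => (H3.inner_add_left _ _ _).trans (by rw [ha, hb, add_zero])) hΨ' fun ψ hψ h =>
        inner_restrict_one_eq_zero A (irr_res_of_inner N hΨ ((hin _).trans (h3.trans (hin _).symm)) hψ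
          (hcon ψ hψ h).2) (hker ψ hψ (hcon ψ hψ h).1)
    have h5 := (H3.inner_sub_left (fun a : A => χ (j a) * conj (χ (j a))) (fun _ => 1) (fun _ => 1)).symm.trans h4
    rw [← hin, irr_inner_self isIrr_one, sub_eq_zero] at h5
    have h6 := irr_degree_one_of_comm (isIrr_of_norm_one hχA h5) hc
    rw [map_one, hn] at h6
    exact h1 (by exact_mod_cast h6)
  obtain rfl : f = 1 := by
    rcases f with _ | _ | f
    · omega
    · rfl
    · omega
  rw [one_mul] at hfe
  have hCN : C ≤ N := centralizer_le_normalizer _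
  have h3 : classInner (fun c : C => χ c * conj (χ c)) (fun _ => 1) = n := by
    have h4 := irr_inner_self hN
    have h5 : ∑ g : N, χ g * conj (χ g) = ∑ c : C, χ c * conj (χ c) := by
      refine Finset.sum_bij_ne_zero (fun g _ h => ⟨g, by
        by_contra k
        exact h (by rw [vanish_of_fpf A hN (hker χ hχ hχ1) (g := g) fun a ha e => by
          by_contra k'; exact k (hcen g ⟨a, ha⟩ (fun h => k' (congrArg Subtype.val h)) e), zero_mul])⟩)
        (fun _ _ _ => Finset.mem_univ _) (fun _ _ _ _ _ _ h => Subtype.ext (congrArg (fun c : C => (c : G)) h))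
        (fun c _ h => ⟨⟨c, hCN c.2⟩, Finset.mem_univ _, h, rfl⟩) fun _ _ _ => rfl
    have h6 := (C.subgroupOf N).card_mul_index
    rw [Nat.card_congr (subgroupOfEquivOfLe hCN).toEquiv, ← he, ← hfe] at h6
    simp only [classInner, map_one, mul_one] at h4 ⊢
    rw [← h5, (inv_mul_eq_iff_eq_mul₀ (card_ne_zero' N)).1 h4, ← h6]
    have := card_ne_zero' C
    push_cast
    field_simp
  have h4 := char_ind_con (Q := fun Θ : G → ℂ => (p + 1) * (classInner (fun c : C => Θ c) (fun _ => 1)).re ≤ 2 * (Θ 1).re)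
    (by simp [classInner]) (fun a b ha hb => by
      have := H3.inner_add_left (fun c : C => a c) (fun c : C => b c) (fun _ => 1)
      simp only [Pi.add_def] at this
      simp only [Pi.add_apply, this, Complex.add_re]
      linarith) hΨ' fun ψ hψ h => blk_bound' P hP hG (by change 2 * e + 1 ≤ p; omega) hψ (hcon ψ hψ h).1
  have h5 := H3.inner_sub_left (fun c : C => χ c * conj (χ c)) (fun _ => 1) (fun _ => 1)
  rw [h3, irr_inner_self isIrr_one] at h5
  simp only [Pi.sub_def] at h5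
  simp only [Pi.sub_apply, h5, hn, map_natCast, Complex.sub_re, Complex.natCast_re, Complex.one_re, Complex.mul_re,
    Complex.natCast_im, mul_zero, sub_zero] at h4
  have h6 : (2 : ℝ) * n + 2 ≤ p := by exact_mod_cast hlt
  have h7 : (2 : ℝ) ≤ n := by exact_mod_cast (by omega : 2 ≤ n)
  nlinarith

end H3
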