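import Cfsg.Agent.H3.Mu
import Cfsg.Agent.H1.Frob
import Cfsg.Agent.H1.SylowIn

/-!
H3.Unif: groups whose Sylow subgroup `P` has `C(x) = C(P)` for all `x ∈ P^#` (Brauer–Leonard):
characters of degree `d` with `d² + 1 < |P|`.
-/

set_option autoImplicit false
open Cfsg Subgroup
open scoped ComplexConjugate Pointwise

namespace H3

universe u
variable {G : Type u} [Group G] [Finite G]

structure UC (P C V N : Subgroup G) : Prop where
  hPC : P ≤ C
  hVC : V ≤ C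
  hCN : C ≤ N
  hNC : N ≤ normalizer (C : Set G)
  hNP : N ≤ normalizer (P : Set G)
  hNV : N ≤ normalizer (V : Set G)
  cen : C ≤ centralizer (P : Set G)
  idx : V.relIndex C = Nat.card P
  cop : (P.relIndex C).Coprime (Nat.card P)
  ti : ∀ g, g ∉ N → ∀ a ∈ C, a ∉ V → g * a * g⁻¹ ∈ C → g * a * g⁻¹ ∈ V
  fpf : ∀ n ∈ N, n ∉ C → P ⊓ centralizer {n} = ⊥

theorem exists_uc {p : ℕ} [hp : Fact p.Prime] (P : Sylow p G)
    (hstar : ∀ x ∈ (P : Subgroup G), x ≠ 1 →
      centralizer ({x} : Set G) = centralizer ((P : Subgroup G) : Set G)) :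
    ∃ V, UC (P : Subgroup G) (centralizer ((P : Subgroup G) : Set G)) V
      (normalizer ((P : Subgroup G) : Set G)) := by
  set C := centralizer ((P : Subgroup G) : Set G) with hC
  have hPC : (P : Subgroup G) ≤ C := fun x hx => by
    by_cases h : x = 1
    · rw [h]; exact C.one_mem
    · rw [← hstar x hx h]; exact mem_centralizer_singleton_iff.2 rfl
  have hCN : C ≤ normalizer ((P : Subgroup G) : Set G) := centralizer_le_normalizer _
  have hS := (H1.isSylowIn_top P).of_le hPC le_top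
  obtain ⟨V, hVC, hd, hs, hV⟩ := H1.exists_complement_rel hPC hCN hS.coprime
  have hcop : (Nat.card V).Coprime (Nat.card P) := hV ▸ hS.coprime.symm
  have hPV : (P : Subgroup G) ≤ normalizer (V : Set G) := fun x hx =>
    H1.mem_normalizer_iff_conj_mem.2 fun v hv => by
      rw [hVC hv x hx, mul_inv_cancel_right]; exact hv
  have hCV : C ≤ normalizer (V : Set G) := hs ▸ sup_le le_normalizer hPV
  have hidx : V.relIndex C = Nat.card P := by
    have e1 := H1.card_mul_relIndex hVC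
    have e2 := H1.card_mul_relIndex hPC
    rw [← hV, ← e1, mul_comm] at e2
    exact (Nat.eq_of_mul_eq_mul_left Nat.card_pos e2).symm
  have hNC := H1.centralizer_normalizer (P : Subgroup G)
  refine ⟨V, hPC, hVC, hCN, hNC, le_rfl, fun n hn => H1.mem_normalizer_iff_conj_mem.2 ?_, le_rfl,
    hidx, hS.coprime.symm, fun g hg a ha haV hb => ?_, fun n hn hnC => ?_⟩
  · exact H1.conj_smul_le_iff.1 (H1.le_of_coprime_relIndex
      (H1.conj_smul_le_of_mem_normalizer hVC (hNC hn)) hCV (by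
        rw [H1.card_conj_smul, hidx]; exact hcop))
  · by_contra hbV
    rw [← hs, sup_comm] at ha hb
    obtain ⟨x, hx, v, hv, rfl⟩ := (H1.mem_sup_of_le_normalizer_right hPV).1 ha
    obtain ⟨y, hy, w, hw, e⟩ := (H1.mem_sup_of_le_normalizer_right hPV).1 hb
    have hx1 : x ≠ 1 := by rintro rfl; exact haV (by simpa using hv)
    have hy1 : y ≠ 1 := by rintro rfl; exact hbV (by simpa [← e] using hw)
    have e2 : g * x * g⁻¹ = y := eq_of_mul_eq_mul_coprime (u := g * v * g⁻¹) (v := w)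
      (by have : x * v = v * x := hVC hv x hx
          change _ = _
          calc _ = g * (x * v) * g⁻¹ := by group
            _ = _ := by rw [this]; group)
      (hVC hw y hy) (by
        rw [orderOf_conj', orderOf_conj']
        have a1 := H1.orderOf_dvd_card_of_mem hx
        have a2 := H1.orderOf_dvd_card_of_mem hy
        have a3 := H1.orderOf_dvd_card_of_mem hv
        have a4 := H1.orderOf_dvd_card_of_mem hw
        exact Nat.Coprime.mul_left
          (Nat.Coprime.mul_right (hcop.symm.of_dvd a1 a3) (hcop.symm.of_dvd a1 a4))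
          (Nat.Coprime.mul_right (hcop.symm.of_dvd a2 a3) (hcop.symm.of_dvd a2 a4)))
      (by rw [e]; group)
    refine hg (hS.normalizer_le_of_normal hCN (H1.mem_normalizer_iff_conj_mem.2 fun c hc => ?_))
    rw [← hstar x hx hx1, mem_centralizer_singleton_iff] at hc
    rw [← hstar y hy hy1, mem_centralizer_singleton_iff, ← e2]
    calc _ = g * (c * x) * g⁻¹ := by group
      _ = _ := by rw [hc]; group
  · rw [eq_bot_iff]
    rintro x ⟨hx, hx2⟩
    by_contra h1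
    apply hnC
    rw [← hstar x hx h1, mem_centralizer_singleton_iff]
    exact (mem_centralizer_singleton_iff.1 hx2).symm

theorem exists_lam {P C : Subgroup G} (hPC : P ≤ C) (cen : C ≤ centralizer (P : Set G))
    {θ : G → ℂ} (hθ : IrrOn C θ) :
    ∃ l : P →* ℂˣ, ∀ y : P, ∀ c ∈ C, θ (c * y) = l y * θ c := by
  obtain ⟨f, hf⟩ := exists_hom_charCenter (χ := fun c : C => θ c) hθ.one_ne
  have h : ∀ y : P, inclusion hPC y ∈ charCenter fun c : C => θ c := fun y =>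
    center_le_charCenter hθ.1 (mem_center_iff.2 fun c => Subtype.ext (cen c.2 y y.2).symm)
  exact ⟨f.comp ((inclusion hPC).codRestrict _ h), fun y c hc => hf ⟨_, h y⟩ ⟨c, hc⟩⟩

open Classical in
noncomputable def orb (C N : Subgroup G) (θ : G → ℂ) : Finset (G → ℂ) :=
  (irrs C).filter fun η => ∃ n ∈ N, η = cf n θ

theorem mem_orb {C N : Subgroup G} {θ η : G → ℂ} :
    η ∈ orb C N θ ↔ IrrOn C η ∧ ∃ n ∈ N, η = cf n θ := by simp [orb, mem_irrs]

theorem orb_subset (C N : Subgroup G) (θ : G → ℂ) : orb C N θ ⊆ irrs C := by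
  classical exact Finset.filter_subset _ _

theorem unif_arith {e f t q M : ℕ} (he : 0 < e) (hf : 0 < f) (hq : q = 1 + e * t)
    (hd : (e * f) ^ 2 + 1 < q) (h1 : e + 1 ≤ M) (h2 : M + 1 ≤ (e * f) ^ 2)
    (h3 : q * M < M ^ 2 + e * q) : f = 1 ∧ t = e + 1 ∧ M = e + 1 := by
  have ht : e * f ^ 2 + 1 ≤ t := by
    have : e * (e * f ^ 2) < e * t := by nlinarith
    exact Nat.lt_of_mul_lt_mul_left this
  obtain ⟨a, rfl⟩ : ∃ a, M = e + 1 + a := ⟨M - (e + 1), by omega⟩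
  obtain ⟨s, rfl⟩ : ∃ s, t = e * f ^ 2 + 1 + s := ⟨t - (e * f ^ 2 + 1), by omega⟩
  obtain ⟨r, hr⟩ : ∃ r, (e * f) ^ 2 = e + 1 + a + 1 + r := ⟨(e * f) ^ 2 - (e + 1 + a + 1), by omega⟩
  have hq' : q = e + 1 + a + (e + 2 + r + e * s) := by rw [hq]; nlinarith
  have key : (1 + a) * (2 + r + e * s) < e ^ 2 := by rw [hq'] at h3; nlinarith
  have hf1 : f = 1 := by
    by_contra hc
    have : 2 ≤ f := by omega
    have : (e * 2) ^ 2 ≤ (e * f) ^ 2 := by gcongr
    nlinarith [Nat.zero_le (a * r), Nat.zero_le (e * s), Nat.zero_le (a * (e * s))]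
  subst hf1
  rw [mul_one] at hr
  have ha : a = 0 := by
    by_contra hc
    obtain ⟨b, rfl⟩ : ∃ b, a = b + 1 := ⟨a - 1, by omega⟩
    have h4 : 3 ≤ e := by
      by_contra h4
      have : e ≤ 2 := by omega
      nlinarith
    nlinarith [Nat.zero_le (b * r), Nat.zero_le (e * s), Nat.zero_le (b * (e * s))]
  subst ha
  have hs : s = 0 := by
    by_contra hc
    have : e * 1 ≤ e * s := Nat.mul_le_mul_left _ (by omega)
    nlinarith
  subst hs
  simp

namespace UC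

variable {P C V N : Subgroup G} (U : UC P C V N)
include U

omit [Finite G] in
theorem comm {a b : G} (ha : a ∈ P) (hb : b ∈ P) : a * b = b * a := U.cen (U.hPC hb) a ha

theorem irrV {θ : G → ℂ} (hθ : IrrOn C θ) : IsIrrCharacter V fun v : V => θ v := by
  have : (V.subgroupOf C).Normal := (normal_subgroupOf_iff_le_normalizer U.hVC).2
    (U.hCN.trans U.hNV)
  refine (irr_sub_iff U.hVC θ).1 (irr_restrict_of_coprime (V.subgroupOf C) hθ.1 ?_)
  have h1 := degree_dvd_index_of_le_charCenter hθ.1 (ideg_eq hθ.1 :) (P.subgroupOf C)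
    fun y hy => center_le_charCenter hθ.1
      (mem_center_iff.2 fun c => Subtype.ext (U.cen c.2 y hy).symm)
  exact U.cop.of_dvd h1 (U.idx ▸ dvd_rfl)

theorem stab {θ : G → ℂ} (hθ : IrrOn C θ) (h : ∃ x ∈ P, θ x ≠ θ 1) {n : G} (hn : n ∈ N)
    (e : ∀ y ∈ P, θ (n * y * n⁻¹) = θ y) : n ∈ C := by
  by_contra hc
  obtain ⟨x, hx, h⟩ := h
  obtain ⟨y, hy, rfl⟩ := H1.exists_eq_commutator_of_fpf (U.hNP hn) (U.fpf n hn hc) hx
  obtain ⟨l, hl⟩ := exists_lam U.hPC U.cen hθ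
  have hy' := H1.conj_mem_of_mem_normalizer (U.hNP hn) (P.inv_mem hy)
  have e1 := hl ⟨_, hy'⟩ 1 C.one_mem
  have e2 := hl ⟨_, P.inv_mem hy⟩ 1 C.one_mem
  have e3 := hl ⟨_, hy'⟩ y (U.hPC hy)
  have e4 := hl ⟨_, P.inv_mem hy⟩ y (U.hPC hy)
  simp only [one_mul, mul_inv_cancel] at e1 e2 e3 e4
  rw [e _ (P.inv_mem hy), e2] at e1
  rw [← mul_right_cancel₀ hθ.one_ne e1, ← e4] at e3
  exact h (by rw [← e3]; congr 1; group)

omit [Finite G] in
theorem nt_cf {θ : G → ℂ} (h : ∃ x ∈ P, θ x ≠ θ 1) {n : G} (hn : n ∈ N) :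
    ∃ x ∈ P, cf n θ x ≠ cf n θ 1 := by
  obtain ⟨x, hx, h⟩ := h
  exact ⟨_, H1.conj_mem_of_mem_normalizer' (U.hNP hn) hx, by simpa [cf, mul_assoc] using h⟩

theorem le_card_orb {θ : G → ℂ} (hθ : IrrOn C θ) (h : ∃ x ∈ P, θ x ≠ θ 1) :
    C.relIndex N ≤ (orb C N θ).card := by
  have := index_dvd_sum (G := N) (fun n η => cf (n : G)⁻¹ η) (fun η => by simp [cf_one])
    (fun a b η => by simp [cf_cf]) (C.subgroupOf N) (fun _ => 1) (orb C N θ)
    (fun n η hη => by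
      obtain ⟨h1, m, hm, rfl⟩ := mem_orb.1 hη
      exact mem_orb.2 ⟨h1.cf (U.hNC (N.inv_mem n.2)), _, N.mul_mem hm (N.inv_mem n.2), cf_cf _ _ _⟩)
    (fun n η hη e => by
      obtain ⟨h1, m, hm, rfl⟩ := mem_orb.1 hη
      exact (C.inv_mem_iff).1 (U.stab h1 (U.nt_cf h hm) (N.inv_mem n.2) fun y _ => congrFun e y))
    fun _ _ _ => rfl
  rw [Finset.sum_const, nsmul_one] at this
  exact Nat.le_of_dvd (Finset.card_pos.2 ⟨θ, mem_orb.2 ⟨hθ, 1, N.one_mem, (cf_one _).symm⟩⟩)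
    (by exact_mod_cast this)

theorem card_P : ∃ t, Nat.card P = 1 + C.relIndex N * t := by
  classical
  have := Fintype.ofFinite G
  have := index_dvd_sum (G := N) (fun n (x : G) => n * x * (n : G)⁻¹) (fun η => by simp)
    (fun a b η => by simp [mul_assoc]) (C.subgroupOf N) (fun _ => 1)
    ((Finset.univ.filter (· ∈ P)).erase 1)
    (fun n x hx => by
      simp only [Finset.mem_erase, Finset.mem_filter, Finset.mem_univ, true_and] at hx ⊢
      exact ⟨by simpa using hx.1, H1.conj_mem_of_mem_normalizer (U.hNP n.2) hx.2⟩)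
    (fun n x hx e => by
      simp only [Finset.mem_erase, Finset.mem_filter, Finset.mem_univ, true_and] at hx
      by_contra hc
      refine hx.1 ((eq_bot_iff_forall _).1 (U.fpf n n.2 hc) x
        ⟨hx.2, mem_centralizer_singleton_iff.2 ?_⟩)
      conv_lhs => rw [← e]
      simp)
    fun _ _ _ => rfl
  rw [Finset.sum_const, nsmul_one, Finset.card_erase_of_mem (by simp)] at this
  obtain ⟨t, ht⟩ : C.relIndex N ∣ (Finset.univ.filter (· ∈ P)).card - 1 := by exact_mod_cast this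
  have e : Nat.card P = (Finset.univ.filter (· ∈ P)).card := by
    rw [Nat.card_eq_fintype_card, Fintype.card_subtype]
  have : 0 < Nat.card P := Nat.card_pos
  exact ⟨t, by omega⟩

theorem ineq {Ψ : G → ℂ} (hΨ : IsCharacter G Ψ) (h0 : Ψ 1 ≠ 0) :
    Nat.card P * ∑ θ ∈ irrs C, mu C Ψ θ ^ 2 <
      (∑ θ ∈ irrs C, mu C Ψ θ) ^ 2 + C.relIndex N * Nat.card P * mu ⊤ Ψ Ψ := by
  classical
  have := Fintype.ofFinite G
  obtain ⟨A, hA⟩ : ∃ A : Set G, ∀ a, a ∈ A ↔ a ∈ C ∧ a ∉ V := ⟨{a | a ∈ C ∧ a ∉ V}, fun _ => Iff.rfl⟩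
  have e := sum_ti (A := A) (L := N) (fun h => ((hA _).1 h).2 V.one_mem)
    (fun a h => U.hCN ((hA _).1 h).1) (fun x hx a ha => (hA _).2
      ⟨H1.conj_mem_of_mem_normalizer (U.hNC hx) ((hA _).1 ha).1, fun h => ((hA _).1 ha).2
        (by simpa [mul_assoc] using H1.conj_mem_of_mem_normalizer' (U.hNV hx) h)⟩)
    (fun g hg a ha hb => ((hA _).1 hb).2
      (U.ti g hg a ((hA _).1 ha).1 ((hA _).1 ha).2 ((hA _).1 hb).1)) (char_class hΨ)
  have s : ∀ H : Subgroup G, ∑ a : G, (if a ∈ H then ‖Ψ a‖ ^ 2 else 0) =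
      Nat.card H * mu H Ψ Ψ := fun H => by
    rw [← sum_norm_mu (chOn_of_char hΨ H), ← Finset.sum_filter]
    exact Finset.sum_subtype _ (by simp) _
  have e1 : ∑ a : G, (if a ∈ A then ‖Ψ a‖ ^ 2 else 0) =
      Nat.card C * mu C Ψ Ψ - Nat.card V * mu V Ψ Ψ := by
    rw [← s, ← s, ← Finset.sum_sub_distrib]
    refine Finset.sum_congr rfl fun a _ => ?_
    by_cases h1 : a ∈ V
    · simp [h1, U.hVC h1, hA]
    · simp [h1, hA]
  have e2 : ∑ g : G, ‖Ψ g‖ ^ 2 = Nat.card G * mu ⊤ Ψ Ψ := by simpa using s ⊤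
  have e3 : (mu V Ψ Ψ : ℝ) ≤ ((∑ θ ∈ irrs C, mu C Ψ θ) ^ 2 : ℕ) := by
    exact_mod_cast mu_le_sq U.hVC (fun θ => U.irrV) (chOn_of_char hΨ C)
  rw [← mu_self (chOn_of_char hΨ C)]
  generalize (∑ θ ∈ irrs C, mu C Ψ θ) ^ 2 = M at e3 ⊢
  have c1 := H1.card_mul_relIndex U.hVC
  have c2 := H1.card_mul_relIndex U.hCN
  rw [U.idx] at c1
  rw [e1, e2, ← c2, ← c1] at e
  have p1 : (0 : ℝ) < Nat.card G := by exact_mod_cast Nat.card_pos
  have p2 : (0 : ℝ) < Nat.card V := by exact_mod_cast Nat.card_pos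
  have p3 : (0 : ℝ) < Nat.card P := by exact_mod_cast Nat.card_pos
  have p4 : (0 : ℝ) < C.relIndex N := by exact_mod_cast Nat.pos_of_ne_zero index_ne_zero_of_finite
  have p5 : 0 < ‖Ψ 1‖ ^ 2 := by positivity
  have e4 := e.trans_lt (mul_lt_mul_of_pos_left (sub_lt_self _ p5) (inv_pos.2 p1))
  rw [inv_mul_cancel_left₀ p1.ne', inv_mul_lt_iff₀ (by push_cast; positivity)] at e4
  push_cast at e4
  have : (Nat.card P : ℝ) * mu C Ψ Ψ < M + C.relIndex N * Nat.card P * mu ⊤ Ψ Ψ := by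
    refine lt_of_mul_lt_mul_left (a := (Nat.card V : ℝ)) ?_ p2.le
    nlinarith
  exact_mod_cast this

theorem exists_orb {Ψ : G → ℂ} (hΨ : IsCharacter G Ψ) (h : ∃ x ∈ P, Ψ x ≠ Ψ 1) :
    ∃ θ, IrrOn C θ ∧ (∃ x ∈ P, θ x ≠ θ 1) ∧ ∀ η ∈ orb C N θ, 1 ≤ mu C Ψ η := by
  obtain ⟨x, hx, h⟩ := h
  by_contra! hc
  refine h (apply_eq_one_of (chOn_of_char hΨ C) (U.hPC hx) fun θ hθ h0 => ?_)
  by_contra h1
  obtain ⟨η, hη, h2⟩ := hc θ hθ ⟨x, hx, h1⟩
  obtain ⟨-, n, hn, rfl⟩ := mem_orb.1 hη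
  rw [show Ψ = cf n Ψ from funext fun y => (char_class hΨ y n).symm, mu_cf (U.hNC hn)] at h2
  omega

open Classical in
theorem small {χ : G → ℂ} (hχ : IsIrrCharacter G χ) (h : ∃ x ∈ P, χ x ≠ χ 1)
    (hd : charDegree χ ^ 2 < Nat.card P) :
    ∃ θ, IrrOn C θ ∧ (∃ x ∈ P, θ x ≠ θ 1) ∧ (orb C N θ).card = C.relIndex N ∧
      (∀ η ∈ irrs C, mu C χ η = if η ∈ orb C N θ then 1 else 0) ∧
      charDegree χ = C.relIndex N * charDegree θ := by
  obtain ⟨θ, hθ, h1, h2⟩ := U.exists_orb (irr_char hχ) h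
  have e1 := U.ineq (irr_char hχ) (irr_one_ne_zero hχ)
  rw [mu_irr (irrOn_top.2 hχ), mul_one] at e1
  have e2 := sum_mu_le_deg (chOn_of_char (irr_char hχ) C)
  have e3 : ∑ η ∈ irrs C, mu C χ η ^ 2 ≤ C.relIndex N := by
    have : (∑ η ∈ irrs C, mu C χ η) ^ 2 ≤ charDegree χ ^ 2 := by gcongr
    have : Nat.card P * ∑ η ∈ irrs C, mu C χ η ^ 2 < Nat.card P * (C.relIndex N + 1) := by
      nlinarith
    exact Nat.lt_succ_iff.1 (Nat.lt_of_mul_lt_mul_left this)
  have e4 := U.le_card_orb hθ h1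
  have e5 : (orb C N θ).card = ∑ η ∈ irrs C, if η ∈ orb C N θ then 1 else 0 := by
    rw [Finset.sum_boole, Finset.filter_mem_eq_inter, Finset.inter_eq_right.2 (orb_subset _ _ _)]
    rfl
  have e6 : ∀ η ∈ irrs C, (if η ∈ orb C N θ then 1 else 0) ≤ mu C χ η ^ 2 := fun η _ => by
    split_ifs with h3
    · exact Nat.one_le_pow _ _ (h2 η h3)
    · exact Nat.zero_le _
  have e7 := Finset.sum_le_sum e6
  have e8 := (Finset.sum_eq_sum_iff_of_le e6).1 (by omega)
  have e9 : ∀ η ∈ irrs C, mu C χ η = if η ∈ orb C N θ then 1 else 0 := fun η hη => by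
    have := e8 η hη
    split_ifs at this ⊢
    · exact (Nat.pow_eq_one.1 this.symm).resolve_right two_ne_zero
    · exact (Nat.pow_eq_zero.1 this.symm).1
  refine ⟨θ, hθ, h1, by omega, e9, ?_⟩
  rw [deg_sum (chOn_of_char (irr_char hχ) C), show C.relIndex N = (orb C N θ).card by omega, e5,
    Finset.sum_mul]
  refine Finset.sum_congr rfl fun η hη => ?_
  rw [e9 η hη]
  split_ifs with h3
  · obtain ⟨-, n, -, rfl⟩ := mem_orb.1 h3
    simp [charDegree, cf]
  · simp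

theorem triv_of_mu {θ : G → ℂ} (hθ : IrrOn C θ) (h : mu P θ (fun _ => 1) ≠ 0) :
    ∀ x ∈ P, θ x = θ 1 := by
  classical
  have := Fintype.ofFinite P
  obtain ⟨l, hl⟩ := exists_lam U.hPC U.cen hθ
  have e := mu_eq (hθ.ch.le U.hPC) (chOn_one P)
  have e1 := inner_smul_left (θ 1) (fun x : P => (l x : ℂ)) fun x => ((1 : P →* ℂˣ) x : ℂ)
  rw [inner_hom] at e1
  rw [ion_eq, show (fun x : P => θ x) = θ 1 • fun x => (l x : ℂ) from
    funext fun x => by simpa [mul_comm] using hl x 1 C.one_mem] at e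
  have : l = 1 := by
    by_contra hc
    rw [if_neg hc, mul_zero] at e1
    exact h (by exact_mod_cast e.symm.trans e1)
  intro x hx
  simpa [this] using hl ⟨x, hx⟩ 1 C.one_mem

theorem vanish {χ ψ : G → ℂ} (hχ : IsIrrCharacter G χ) (h : ∃ x ∈ P, χ x ≠ χ 1)
    (hd : charDegree χ ^ 2 + 1 < Nat.card P) (hψ : IsIrrCharacter G ψ)
    (hc : mu ⊤ (fun g => χ g * conj (χ g)) ψ ≠ 0) (hn : ∃ x ∈ P, ψ x ≠ ψ 1) :
    mu P ψ (fun _ => 1) = 0 := by
  classical
  by_contra h0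
  obtain ⟨θ, hθ, a1, a2, a3, a4⟩ := U.small hχ h (by omega)
  obtain ⟨t, ht⟩ := U.card_P
  have hΦ : IsCharacter G fun g => χ g * conj (χ g) :=
    char_mul (irr_char hχ) (char_conj (irr_char hχ))
  have cψ := chOn_of_char (irr_char hψ)
  have cχ := chOn_of_char (irr_char hχ)
  have he : 0 < C.relIndex N := Nat.pos_of_ne_zero index_ne_zero_of_finite
  -- lower bound for the number of constituents
  obtain ⟨θ₁, hθ₁, b1, b2⟩ := U.exists_orb (irr_char hψ) hn
  obtain ⟨θ₂, hθ₂, b3⟩ := Finset.exists_ne_zero_of_sum_ne_zero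
    (mu_trans U.hPC (cψ C) (chOn_one P) ▸ h0)
  have b4 : θ₂ ∉ orb C N θ₁ := fun e => by
    obtain ⟨c1, n, hn, rfl⟩ := mem_orb.1 e
    obtain ⟨x, hx, c2⟩ := U.nt_cf b1 hn
    exact c2 (U.triv_of_mu c1 (right_ne_zero_of_mul b3) x hx)
  have m1 : C.relIndex N + 1 ≤ ∑ η ∈ irrs C, mu C ψ η := by
    refine le_trans ?_ (Finset.sum_le_sum_of_subset (Finset.insert_subset hθ₂ (orb_subset C N θ₁)))
    rw [Finset.sum_insert b4, add_comm]
    exact add_le_add (Nat.pos_of_ne_zero (left_ne_zero_of_mul b3)) ((U.le_card_orb hθ₁ b1).trans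
      (by simpa using Finset.card_nsmul_le_sum _ _ 1 b2))
  -- upper bound
  have hψ1 : ψ ≠ fun _ => 1 := by
    rintro rfl
    obtain ⟨x, -, hx⟩ := hn
    exact hx rfl
  have m2 : charDegree ψ + 1 ≤ charDegree χ ^ 2 := by
    have e := deg_sum (chOn_of_char hΦ ⊤)
    rw [deg_of_eq (n := charDegree χ ^ 2) (by simp [ideg_eq hχ, sq])] at e
    rw [e]
    refine le_trans ?_ (Finset.sum_le_sum_of_subset (s := {ψ, fun _ => 1}) (by
      simp [Finset.insert_subset_iff, mem_irrs, irrOn_top, hψ, isIrr_one]))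
    rw [Finset.sum_pair hψ1, mu_mul_conj, mu_irr (irrOn_top.2 hχ),
      deg_of_eq (χ := fun _ => 1) (n := 1) (by simp)]
    exact add_le_add (Nat.le_mul_of_pos_left _ (Nat.pos_of_ne_zero hc)) le_rfl
  have m3 := sum_mu_le_deg (cψ C)
  have m4 := U.ineq (irr_char hψ) (irr_one_ne_zero hψ)
  rw [mu_irr (irrOn_top.2 hψ), mul_one] at m4
  have m5 : ∑ η ∈ irrs C, mu C ψ η ≤ ∑ η ∈ irrs C, mu C ψ η ^ 2 :=
    Finset.sum_le_sum fun η _ => Nat.le_self_pow two_ne_zero _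
  obtain ⟨hf, rfl, hM⟩ := unif_arith he hθ.deg_pos ht (a4 ▸ hd) m1 (by rw [← a4]; omega)
    ((Nat.mul_le_mul_left _ m5).trans_lt m4)
  -- the norm on `P`
  have n1 : mu C χ χ = C.relIndex N := by
    rw [mu_self (cχ C), ← a2, Finset.sum_congr rfl fun η hη => by rw [a3 η hη]]
    simp [Finset.inter_eq_right.2 (orb_subset C N θ)]
  have n2 : mu P χ χ ≤ mu C χ χ := by
    rw [mu_trans U.hPC (cχ C) (cχ P), mu_trans le_rfl (cχ C) (cχ C)]
    refine Finset.sum_le_sum fun η hη => ?_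
    rw [a3 η hη]
    split_ifs with h3
    swap; · simp
    have hη' := mem_irrs.1 hη
    rw [mu_symm hη'.ch (cχ C), a3 η hη, if_pos h3, mu_symm (hη'.ch.le U.hPC) (cχ P), one_mul,
      mu_trans U.hPC (cχ C) (hη'.ch.le U.hPC), Finset.sum_eq_single_of_mem η hη]
    · rw [a3 η hη, if_pos h3, one_mul, one_mul]
      have : IsIrrCharacter P fun x : P => η x := isIrr_of_degree_one (hη'.ch.le U.hPC) (by
        obtain ⟨-, n, -, rfl⟩ := mem_orb.1 h3
        simpa [cf, hf] using hθ.ch.deg)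
      exact mu_le_one this this
    · intro δ hδ hne
      rw [a3 δ hδ]
      split_ifs with h4
      swap; · simp
      obtain ⟨c1, n, hn, rfl⟩ := mem_orb.1 h3
      obtain ⟨c2, m, hm, rfl⟩ := mem_orb.1 h4
      have i : ∀ k ∈ N, IsIrrCharacter P fun x : P => cf k θ x := fun k hk =>
        isIrr_of_degree_one ((hθ.cf (U.hNC hk)).ch.le U.hPC) (by simpa [cf, hf] using hθ.ch.deg)
      have := Fintype.ofFinite P
      by_contra h5
      have e := mu_eq (c2.ch.le U.hPC) (c1.ch.le U.hPC)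
      rw [ion_eq] at e
      have e2 := irr_eq_of_inner_ne_zero (i m hm) (i n hn) (by
        rw [e]; exact_mod_cast fun e => h5 (by rw [e, mul_zero]))
      have e3 := U.stab c1 (U.nt_cf a1 hn) (N.mul_mem (N.inv_mem hn) hm) fun y hy => by
        rw [← show cf m θ y = _ from congrFun e2 ⟨y, hy⟩]
        simp [cf, mul_assoc]
      refine hne ?_
      rw [← c1.invBy_self _ e3, cf_cf, mul_inv_cancel_left]
  have n3 : 1 ≤ mu C ψ fun _ => 1 := by
    rw [← mu_mul_conj, ← mu_mul_conj, mu_trans le_top (chOn_of_char hΦ ⊤) (chOn_one P),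
      mu_trans le_top (chOn_of_char hΦ ⊤) (chOn_one C)] at n2
    have l : ∀ γ ∈ irrs (⊤ : Subgroup G), _ * _ ≤ mu ⊤ (fun g => χ g * conj (χ g)) γ * _ :=
      fun γ hγ => Nat.mul_le_mul_left _
        (mu_anti U.hPC ((mem_irrs.1 hγ).ch.le le_top) (chOn_one C))
    have := (Finset.sum_eq_sum_iff_of_le l).1 (le_antisymm (Finset.sum_le_sum l) n2) ψ
      (mem_irrs.2 (irrOn_top.2 hψ))
    rw [Nat.eq_of_mul_eq_mul_left (Nat.pos_of_ne_zero hc) this]
    exact Nat.pos_of_ne_zero h0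
  -- the final character
  set e := C.relIndex N
  have hΨ : IsCharacter G fun g => e * ψ g + 1 := char_add (char_nsmul (irr_char hψ) e) char_one
  have k := U.ineq hΨ (by
    rw [ideg_eq hψ]; exact_mod_cast Nat.succ_ne_zero (e * charDegree ψ))
  have o : ∀ η ∈ irrs C, mu C (fun _ => 1) η = if η = oneOn C then 1 else 0 := fun η hη => by
    rw [mu_symm (chOn_one C) (mem_irrs.1 hη).ch, ← mu_oneOn]
    split_ifs with h3
    · rw [h3, mu_irr (irrOn_oneOn C)]
    · exact mu_irr_ne (mem_irrs.1 hη) (irrOn_oneOn C) h3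
  have ho := mem_irrs.2 (irrOn_oneOn C)
  have k1 : ∑ η ∈ irrs C, mu C (fun g => e * ψ g + 1) η = e * (e + 1) + 1 := by
    rw [Finset.sum_congr rfl fun η hη => by
      rw [mu_add_left (cψ C) (chOn_one C) (mem_irrs.1 hη).ch, o η hη], Finset.sum_add_distrib,
      ← Finset.mul_sum, hM]
    simp [ho]
  have k2 : ∑ η ∈ irrs C, mu C (fun g => e * ψ g + 1) η ^ 2 =
      e ^ 2 * ∑ η ∈ irrs C, mu C ψ η ^ 2 + (2 * e * mu C ψ (fun _ => 1) + 1) := by
    rw [Finset.sum_congr rfl (g := fun η => e ^ 2 * mu C ψ η ^ 2 +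
      if η = oneOn C then 2 * e * mu C ψ η + 1 else 0) fun η hη => by
        rw [mu_add_left (cψ C) (chOn_one C) (mem_irrs.1 hη).ch, o η hη]
        split_ifs <;> ring, Finset.sum_add_distrib, ← Finset.mul_sum]
    simp [ho, mu_oneOn]
  have z : mu ⊤ ψ (fun _ => 1) = 0 := mu_irr_ne (irrOn_top.2 hψ) (irrOn_top.2 isIrr_one) hψ1
  have k3 : mu ⊤ (fun g => e * ψ g + 1) (fun g => e * ψ g + 1) = e ^ 2 + 1 := by
    rw [mu_add_left (cψ ⊤) (chOn_one ⊤) (chOn_of_char hΨ ⊤), mu_symm (cψ ⊤) (chOn_of_char hΨ ⊤),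
      mu_symm (chOn_one ⊤) (chOn_of_char hΨ ⊤), mu_add_left (cψ ⊤) (chOn_one ⊤) (cψ ⊤),
      mu_add_left (cψ ⊤) (chOn_one ⊤) (chOn_one ⊤), mu_symm (chOn_one ⊤) (cψ ⊤), z,
      mu_irr (irrOn_top.2 hψ), mu_irr (irrOn_top.2 isIrr_one)]
    ring
  rw [k1, k2, k3, ht] at k
  have := Nat.lt_of_mul_lt_mul_left (k.trans_eq
    (show _ = (1 + e * (e + 1)) * (1 + e * (e + 1) + e * (e ^ 2 + 1)) by ring))
  have : e ^ 2 * (e + 1) ≤ e ^ 2 * ∑ η ∈ irrs C, mu C ψ η ^ 2 := by gcongr; omega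
  have : 2 * e * 1 ≤ 2 * e * mu C ψ fun _ => 1 := by gcongr
  nlinarith

theorem comm_ker {χ : G → ℂ} (hχ : IsIrrCharacter G χ) (hd : charDegree χ ^ 2 + 1 < Nat.card P)
    {a b : G} (ha : a ∈ normalClosure (P : Set G)) (hb : b ∈ normalClosure (P : Set G)) :
    χ (a * b * a⁻¹ * b⁻¹) = χ 1 := by
  set K := normalClosure (P : Set G)
  have k : ∀ {ψ}, IsIrrCharacter G ψ → (∀ x ∈ P, ψ x = ψ 1) → ∀ x ∈ K, ψ x = ψ 1 :=
    fun {ψ} hψ h x hx => by
      have := charKer_normal (irr_class hψ)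
      exact (mem_charKer (irr_char hψ) x).1 (normalClosure_le_normal
        (fun y hy => (mem_charKer (irr_char hψ) y).2 (h y hy)) hx)
  by_cases h : ∀ x ∈ P, χ x = χ 1
  · exact k hχ h _ (K.mul_mem (K.mul_mem (K.mul_mem ha hb) (K.inv_mem ha)) (K.inv_mem hb))
  push Not at h
  have hΦ : IsCharacter G fun g => χ g * conj (χ g) :=
    char_mul (irr_char hχ) (char_conj (irr_char hχ))
  refine comm_of_mu_eq le_normalClosure (fun _ ha _ hb => U.comm ha hb)
    (chOn_of_char (irr_char hχ) K) ?_ ha hb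
  rw [← mu_mul_conj, ← mu_mul_conj, mu_trans le_top (chOn_of_char hΦ ⊤) (chOn_one P),
    mu_trans le_top (chOn_of_char hΦ ⊤) (chOn_one K)]
  refine Finset.sum_congr rfl fun ψ hψ => ?_
  have hψ := irrOn_top.1 (mem_irrs.1 hψ)
  have cψ := chOn_of_char (irr_char hψ)
  by_cases h1 : mu ⊤ (fun g => χ g * conj (χ g)) ψ = 0
  · simp [h1]
  by_cases h2 : ∀ x ∈ P, ψ x = ψ 1
  · rw [mu_const (cψ P) h2, mu_const (cψ K) (k hψ h2)]
  push Not at h2
  have e := U.vanish hχ h hd hψ h1 h2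
  have := mu_anti (le_normalClosure (H := P)) (cψ K) (chOn_one K)
  rw [e] at this ⊢
  exact congrArg _ (Nat.le_zero.1 this).symm

end UC

end H3
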